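import Cfsg.Agent.H3.RO9
import Cfsg.Agent.H1.FrobN

/-! Split rank one set-up: the case `|Q| = q ^ 3` forces `W ≠ 1`; Suzuki's theorem modulo the Zassenhaus case. -/

set_option autoImplicit false
open Subgroup Cfsg CfsgH2 CfsgH1 CfsgH3 Function MulAction
open scoped commutatorElement IsMulCommutative

namespace CfsgRO

universe u v

section
variable {G Ω : Type*} [Group G] [Finite G] [MulAction G Ω] {a : Ω} {t : G} {Q : Subgroup G}

local notation "H" => stabilizer G a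
local notation "D" => DD a t
local notation "K" => invertedBy (DD a t) t
local notation "I" => involutionsIn (SetLike.coe (stabilizer G a))

theorem C3.of (h : RO a t Q) (h2 : R2 G) (pg : PG[2, Q]) (sq : ∀ x ∈ Q, x * x ∈ Q0 G a)
    (cd : o[Q] = o[Q0 G a] ^ 3) : C3 a t Q := by
  refine ⟨h, h2, pg, fun ab => ?_, cd⟩
  have sz := h.sze h2 pg
  have e1 := sz.ir_relIndex le_rfl (sz.ir_phi le_rfl sz.nP (fun e => sz.E_ne (le_bot_iff.1 (e ▸ sz.le))) ab)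
  have e2 := CfsgH2.card_mul_relIndex ((phi_le_of_sq sq).trans sz.le)
  have e3 := card_le_of_le (phi_le_of_sq sq)
  obtain ⟨n, hn, e⟩ := h.card_Q0 h2
  have : 2 ^ 2 ≤ o[Q0 G a] := e ▸ Nat.pow_le_pow_right (by norm_num) hn
  rw [e1, cd] at e2
  have : o[Q0 G a] ^ 3 ≤ o[Q0 G a] * o[Q0 G a] := e2 ▸ Nat.mul_le_mul_right _ e3
  nlinarith

theorem C3.sub (h : C3 a t Q) {L : Subgroup G} (hQ : Q ≤ L) (ht : t ∈ L) :
    C3 a (⟨t, ht⟩ : L) (Q.subgroupOf L) ∧ Q0 L a = (Q0 G a).subgroupOf L := by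
  have h1 := h.toRO.sub hQ ht
  have h2 := h.r2_sub h.r2 hQ
  have e : Q0 L a = (Q0 G a).subgroupOf L := h.Q0_pull h.r2 L.subtype_injective h1 h2
  exact ⟨C3.of h1 h2 (h.pg.comap_of_injective _ L.subtype_injective) (fun x hx => e ▸ h.sq hx)
    (by rw [e, CfsgH2.card_subgroupOf hQ, CfsgH2.card_subgroupOf (h.Q0_le.trans hQ), h.cd]), e⟩

theorem RO.gal (h : RO a t Q) (h2 : R2 G) (hW : D ⊓ C[Q0 G a] = ⊥) {u d : G} (hu : u ∈ D ⊓ C1[t])
    (hd : d ∈ D) (du : d ∈ C1[u]) (hc : d ∈ C[Q0 G a ⊓ C1[u]]) : d ∈ zpowers u := by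
  obtain ⟨s, hs, r, hr, e⟩ := h.exists_str
  obtain ⟨k, hk, v, hv, rfl⟩ := h.dec_D hd
  have us := (h.V_le hs hr e hu).1
  have vs := (h.V_le hs hr e hv).1
  have k1 : k = 1 := by
    by_contra k1
    have := mem_cent_iff.1 hc s (mem_inf.2 ⟨RO.I_Q0 hs, mc1.2 (mul_inv_eq_iff_eq_mul.1 us).symm⟩)
    rw [mul_assoc k, mul_inv_eq_iff_eq_mul.1 vs, ← mul_assoc, ← mul_assoc, mul_left_inj] at this
    exact hs.2.1 (mem_bot.1 (h.K_fpf hk k1 ▸ mem_inf.2 ⟨h.I_Q hs, mc1.2 this⟩))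
  subst k1
  rw [one_mul] at hc ⊢
  obtain ⟨n, hn, e'⟩ := h.card_Q0 h2
  have hF : Nat.card (GaloisField 2 n) = o[Q0 G a] := by rw [e', GaloisField.card 2 n (by omega)]
  obtain ⟨c, l, co, h1⟩ := h.exists_co h2 hF hs
  rw [h.V_eq hs hr e] at hu hv
  obtain ⟨α, hα, -⟩ := h.exists_aut h2 co hs h1
  have inj : ∀ z ∈ Q0 G a, ∀ z' ∈ Q0 G a, c z = c z' → z = z' := fun z hz z' hz' e => by
    have := (co.eq_iff hz hz').1 e
    rwa [mem_bot, inv_mul_eq_one] at this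
  have αi : Injective α := (injective_iff_map_eq_one α).2 fun y e => Subtype.ext (mem_bot.1 (hW ▸ mem_inf.2
    ⟨y.2.1, mem_cent_iff.2 fun z hz => by
      have := hα y z hz
      rw [e] at this
      exact (mul_inv_eq_iff_eq_mul.1 (inj _ (conj_mem_of_norm (RO.n_Q0 y.2.1.1) hz) _ hz this)).symm⟩))
  haveI := fin_aut (F := GaloisField 2 n)
  obtain ⟨⟨_, i, rfl⟩, hg⟩ := FixedPoints.toAlgAut_surjective (zpowers (α ⟨u, hu⟩)) (GaloisField 2 n)
    (AlgEquiv.ofRingEquiv (f := α ⟨v, hv⟩) fun y => by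
      obtain ⟨z, hz, ez⟩ := co.surj y.1
      have h3 : α ⟨u, hu⟩ y.1 = y.1 := y.2 ⟨_, mem_zpowers _⟩
      rw [← ez, ← hα _ z hz] at h3
      have h4 := inj _ (conj_mem_of_norm (RO.n_Q0 hu.1.1) hz) _ hz h3
      change α ⟨v, hv⟩ y.1 = y.1
      rw [← ez, ← hα _ z hz, ← mem_cent_iff.1 hc z (mem_inf.2 ⟨hz, mc1.2 (mul_inv_eq_iff_eq_mul.1 h4).symm⟩),
        mul_inv_cancel_right])
  have : α (⟨u, hu⟩ ^ i) = α ⟨v, hv⟩ := by
    rw [map_zpow]; exact RingEquiv.ext fun y => DFunLike.congr_fun hg y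
  exact ⟨i, congrArg Subtype.val (αi this)⟩

theorem RO.fixT (h : RO a t Q) {u : G} (hu : u ∈ D ⊓ C1[t]) (ev : Even o[Q ⊓ C1[u]]) :
    RO (⟨a, hu.1.1⟩ : FixT Ω u) (⟨t, mc1.2 (mc1.1 hu.2).symm⟩ : C1[u]) (Q.subgroupOf C1[u]) :=
  h.pull (C1[u]).subtype_injective FixT.inj (fun _ _ => rfl) rfl rfl
    (fun b hb => by
      obtain ⟨y, hy, hy', e⟩ := h.cq (X := {u}) (by rintro _ rfl; exact hu.1.1) h.ta (c := b.1)
        (fun e => hb (FixT.inj e)) (by rintro _ rfl; exact hu.1.2) (by rintro _ rfl; exact b.2)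
      exact ⟨⟨y, hy'⟩, hy, FixT.inj e⟩)
    (by rwa [show Q.comap (C1[u]).subtype = Q.subgroupOf C1[u] from rfl, CfsgH1.card_subgroupOf])

theorem pr_zpowers {u : G} {d : C1[u]} (hd : d.1 ∈ zpowers u) : Img.pr C1[u] (FixT Ω u) d = 1 :=
  eq_of_smul_eq_smul (α := FixT Ω u) fun b => by
    rw [one_smul, Img.pr_smul]
    exact FixT.inj ((zpowers_le.2 b.2 : zpowers u ≤ stabilizer G b.1) hd)

theorem C3.eight (h : C3 a t Q) (hW : D ⊓ C[Q0 G a] = ⊥) {u : G} (hu : u ∈ D ⊓ C1[t]) (ou : orderOf u = 3)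
    (c0 : o[Q0 G a] = 8) (c1 : o[Q0 G a ⊓ C1[u]] = 2) (c2 : o[Q ⊓ C1[u]] = 8) : False := by
  classical
  obtain ⟨s, hs, r, hr, e⟩ := h.exists_str
  have sX : s ∈ Q0 G a ⊓ C1[u] :=
    mem_inf.2 ⟨RO.I_Q0 hs, mc1.2 (mul_inv_eq_iff_eq_mul.1 (h.V_le hs hr e hu).1).symm⟩
  have eX : zpowers s = Q0 G a ⊓ C1[u] := eq_of_le_card (zpowers_le.2 sX) (by
    rw [c1, Nat.card_zpowers, ord2 hs.2.1 hs.2.2])
  have mX : ∀ z ∈ Q0 G a ⊓ C1[u], z ≠ 1 → z = s := fun z hz z1 => by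
    rw [← eX, mem_zpowers_iff_mem_range_orderOf, ord2 hs.2.1 hs.2.2] at hz
    simp [Finset.range_add_one, eq_comm] at hz
    tauto
  have cu : o[zpowers u] = 3 := by rw [Nat.card_zpowers, ou]
  have hD : ∀ d ∈ D, d ∈ C1[u] → d ∈ zpowers u := fun d hd du => h.gal h.r2 hW hu hd du (by
    rw [← eX, cent_zpowers, mc1, ← mul_inv_eq_iff_eq_mul]
    exact mX _ (conj_mem_of_norm (mem_norm_inf (RO.n_Q0 hd.1) (le_normalizer du)) sX)
      (fun e => hs.2.1 (conj_eq_one_iff.1 e)))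
  have hV : D ⊓ C1[t] = zpowers u := le_antisymm (fun v hv => by
    obtain ⟨v0, hv0, e0⟩ := h.V_cyc h.r2
    rw [h.W_eq, ← RO.cent_Q0, hW, bot_sup_eq] at e0
    rw [← e0] at hu hv
    exact hD v (e0 ▸ hv).1 (mc1.2 (comm_of_isMulComm inferInstance hv hu))) (zpowers_le.2 hu)
  have cG : Nat.card G = 512 * 21 * 513 := by
    have e1 := h.card_KK h.r2
    have e2 : Nat.card K = o[KK a t] := Nat.card_congr (Equiv.subtypeEquivRight fun k => (h.mem_KK h.r2).symm)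
    rw [h.card_G, card_fac h.tt h.od h.tD', hV, cu, e2, h.cd, c0, show o[KK a t] = 7 by omega]
    norm_num
  have h1 := h.fixT hu (by rw [c2]; decide)
  set f := Img.pr C1[u] (FixT Ω u) with hf
  have h2 := h1.push (Img.pr_surj _ _) (Img.pr_smul _ _)
  have cQ : o[(Q.subgroupOf C1[u]).map f] = 8 := by
    rw [h1.card_push (Img.pr_smul _ _) le_rfl, CfsgH1.card_subgroupOf, c2]
  have ker : f.ker = (zpowers u).subgroupOf C1[u] := le_antisymm (fun d hd => by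
    have : ∀ b : FixT Ω u, d • b = b := fun b => by rw [← Img.pr_smul, ← hf, hd, one_smul]
    exact hD _ ⟨congrArg FixT.val (this ⟨a, hu.1.1⟩), congrArg FixT.val (this ⟨t • a, hu.1.2⟩)⟩ d.2)
    fun d hd => pr_zpowers hd
  have cker : o[f.ker] = 3 := by rw [ker, CfsgH2.card_subgroupOf (zpowers_le.2 (self_mem_cent1 u)), cu]
  have D2 : DD (⟨a, hu.1.1⟩ : FixT Ω u) (f ⟨t, mc1.2 (mc1.1 hu.2).symm⟩) = ⊥ := by
    rw [D_push (Img.pr_surj _ _) (Img.pr_smul _ _), eq_bot_iff]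
    rintro _ ⟨d, hd, rfl⟩
    exact pr_zpowers (hD _ ⟨congrArg FixT.val hd.1, congrArg FixT.val hd.2⟩ d.2)
  have cG2 := h2.card_G
  rw [← hf, D2, cQ, card_bot] at cG2
  have eH := h2.sup
  rw [← hf, D2, sup_bot_eq] at eH
  obtain ⟨N, fr⟩ : ∃ N, Frob N ((Q.subgroupOf C1[u]).map f) ⊤ :=
    exists_frob_of_ti (lt_top_iff_ne_top.2 fun e => h2.t_nmem (eH ▸ e ▸ mem_top _))
    (fun e => by rw [e, card_bot] at cQ; omega) (fun g _ hg => eq_bot_iff.2 fun x hx => mem_bot.2 (by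
      by_contra x1
      obtain ⟨y, hy, ey⟩ := hx.2
      refine hg (eH ▸ h2.mem_of_conj hy (fun e => x1 (by rw [← ey, e, map_one])) ?_)
      exact h2.le (ey ▸ hx.1 : cj g y ∈ _)))
  have cN : o[N] = 9 := by
    have := fr.card
    rw [card_top, cG2, cQ] at this
    omega
  haveI := fr.normal
  set R := (N.comap f).map (C1[u]).subtype with hR
  have cR : o[R] = 3 ^ 3 := by
    rw [card_map_of_injective (C1[u]).subtype_injective, card_comap_eq f N (by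
      rw [MonoidHom.range_eq_top.2 (Img.pr_surj _ _)]; exact le_top), cN, cker]
    norm_num
  have nR : C1[u] ≤ N[R] := le_norm_map_subtype _
  have uR : u ∈ R := ⟨⟨u, self_mem_cent1 u⟩, by
    rw [SetLike.mem_coe, mem_comap, pr_zpowers (mem_zpowers u)]; exact one_mem _, rfl⟩
  have Rs : ∀ y ∈ R, y ∈ C1[s] → y ∈ zpowers u := by
    rintro _ ⟨y, hy, rfl⟩ ys
    have s1 : f ⟨s, sX.2⟩ ≠ 1 := fun e => hs.2.1 (congrArg Subtype.val
      (h1.push_inj (Img.pr_smul _ _) (x := ⟨s, sX.2⟩) (h.I_Q hs) e))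
    have : f y ∈ N ⊓ C1[f ⟨s, sX.2⟩] := mem_inf.2 ⟨hy, mc1.2 (by
      rw [← map_mul, ← map_mul]; exact congrArg f (Subtype.ext (mc1.1 ys)))⟩
    rw [fr.fpf _ ⟨⟨s, sX.2⟩, h.I_Q hs, rfl⟩ s1, mem_bot, ← MonoidHom.mem_ker, ker] at this
    exact this
  have cC : o[C1[u]] = 216 := by
    have := CfsgH1.card_map_mul_card_inf_ker f ⊤
    rw [map_top_of_surjective _ (Img.pr_surj _ _), card_top, card_top, inf_top_eq, cG2, cker] at this
    omega
  set X := {y | ∃ x ∈ N[R], x * u * x⁻¹ = y} with hX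
  have e1 : 216 * X.ncard = o[N[R]] := by rw [hX, ncard_class, ← cC, CfsgH2.card_mul_relIndex nR]
  have XR : X ⊆ R := by rintro _ ⟨x, hx, rfl⟩; exact conj_mem_of_norm hx uR
  have e2 : X.ncard ≤ 27 := (Set.ncard_le_ncard XR).trans cR.le
  have e3 : 8 ∣ (X \ {u}).ncard := by
    refine dvd_ncard_of_classes _ (fun y => {z | ∃ x ∈ Q ⊓ C1[u], x * y * x⁻¹ = z}) 8
      (fun y _ => ⟨1, one_mem _, by simp⟩) ?_ ?_ ?_
    · rintro _ ⟨⟨g, hg, rfl⟩, hy⟩ _ ⟨x, hx, rfl⟩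
      refine ⟨⟨x * g, mul_mem (nR hx.2) hg, by group⟩, fun e => hy ?_⟩
      rw [Set.mem_singleton_iff, mul_inv_eq_iff_eq_mul, ← mc1.1 hx.2, mul_right_inj] at e
      exact e
    · rintro y - _ ⟨x, hx, rfl⟩
      ext z
      exact ⟨fun ⟨g, hg, e⟩ => ⟨g * x, mul_mem hg hx, by rw [← e]; group⟩,
        fun ⟨g, hg, e⟩ => ⟨g * x⁻¹, mul_mem hg (inv_mem hx), by rw [← e]; group⟩⟩
    · rintro y ⟨hy, hy'⟩
      have : C1[y] ⊓ (Q ⊓ C1[u]) = ⊥ := eq_bot_iff.2 fun x hx => mem_bot.2 (by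
        by_contra x1
        have sy : s ∈ C1[y] := by
          by_cases x2 : x * x = 1
          · rw [← mX x ⟨(h.mem_Q0 h.r2).2 ⟨h.le hx.2.1, x2⟩, hx.2.2⟩ x1]; exact hx.1
          · rw [← mX _ ⟨h.sq hx.2.1, (C1[u]).mul_mem hx.2.2 hx.2.2⟩ x2]; exact (C1[y]).mul_mem hx.1 hx.1
        have yu := Rs y (XR hy) (mc1.2 (mc1.1 sy).symm)
        obtain ⟨g, -, rfl⟩ := hy
        obtain ⟨v, hv, ev⟩ := h.fusion (X := {u}) (g := g) (by simpa using hu) (by rintro _ rfl; exact hV ▸ yu)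
        rw [hV] at hv
        refine hy' ?_
        rw [← ev u rfl, comm_of_isMulComm inferInstance hv (mem_zpowers u), mul_inv_cancel_right]
        rfl)
      rw [ncard_class, ← inf_relIndex_right, this, relIndex_bot_left, c2]
  have e4 := Set.ncard_diff_singleton_add_one (show u ∈ X from ⟨1, one_mem _, by simp⟩)
  have e5 := card_subgroup_dvd_card N[R]
  have e6 := Sylow.prime_pow_dvd_card_normalizer (p := 3) (n := 3) (by rw [cG]; norm_num) cR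
  rw [← e1] at e5 e6
  rw [cG] at e5
  obtain ⟨j, hj⟩ := e3
  have : X.ncard = 1 ∨ X.ncard = 9 ∨ X.ncard = 17 ∨ X.ncard = 25 := by omega
  rcases this with e | e | e | e <;> rw [e] at e5 e6 <;> omega

end

/-- the Zassenhaus case `V = 1` does not occur for `|Q| = q ^ 3` -/
def ZH : Prop := ∀ (G : Type u) (Ω : Type v) [Group G] [Finite G] [MulAction G Ω] [FaithfulSMul G Ω]
  [IsSimpleGroup G] (a : Ω) (t : G) (Q : Subgroup G), C3 a t Q → DD a t ⊓ C1[t] ≠ ⊥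

theorem W_step (hZ : ZH.{u, v}) {G : Type u} {Ω : Type v} [Group G] [Finite G] [MulAction G Ω]
    [FaithfulSMul G Ω] [IsSimpleGroup G] {a : Ω} {t : G} {Q : Subgroup G} (h : C3 a t Q)
    (ih : ∀ (G' : Type u) (Ω' : Type v) [Group G'] [Finite G'] [MulAction G' Ω'] [FaithfulSMul G' Ω']
      (a : Ω') (t : G') (Q : Subgroup G'), Nat.card G' < Nat.card G → C3 a t Q → DD a t ⊓ C[Q0 G' a] ≠ ⊥) :
    DD a t ⊓ C[Q0 G a] ≠ ⊥ := fun hW => by
  have hV := hZ G Ω a t Q h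
  obtain ⟨p, hp, hd⟩ := Nat.exists_prime_and_dvd (mt card_eq_one.1 hV)
  obtain ⟨u, hu, ou⟩ := exists_prime_order_mem hp hd
  have up : u ^ p = 1 := ou ▸ pow_orderOf_eq_one u
  have u1 : u ≠ 1 := fun e => hp.one_lt.ne (by rw [← ou, e, orderOf_one])
  have uK : u ∉ C[KK a t] := fun e => u1 (mem_bot.1 (hW ▸ h.mem_W hu e))
  have hd := h.prime_dvd h.r2 h.perfect hp hu up uK
  have e1 := h.cent_pow h.r2 hp hu up uK hd le_rfl (inf_le_left.trans h.nQ) h.pg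
  have e2 := h.cent_pow h.r2 hp hu up uK hd h.Q0_le (inf_le_left.trans RO.n_Q0) (h.pg.to_le h.Q0_le)
  rw [cent_zpowers] at e1 e2
  rw [h.cd, e2, ← pow_mul, mul_comm, pow_mul] at e1
  have e3 := (Nat.pow_left_injective hp.ne_zero e1).symm
  have q4 := h.four_le
  have l1 : 1 < o[Q0 G a ⊓ C1[u]] := by
    by_contra! e
    have := Nat.pow_le_pow_left e p
    rw [one_pow] at this; omega
  by_cases l2 : o[Q0 G a ⊓ C1[u]] = 2
  · rw [l2] at e2 e3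
    have p3 : p = 3 := by
      haveI := Fact.mk hp
      rw [e2, ← ZMod.natCast_eq_zero_iff] at hd
      push_cast at hd
      rw [ZMod.pow_card] at hd
      have : ((3 : ℕ) : ZMod p) = 0 := by push_cast; linear_combination hd
      exact (Nat.prime_dvd_prime_iff_eq hp Nat.prime_three).1 ((ZMod.natCast_eq_zero_iff _ _).1 this)
    subst p3
    exact h.eight hW hu ou e2 l2 e3
  have ev : Even o[Q ⊓ C1[u]] := by
    obtain ⟨n, hn⟩ := exists_card_eq_pow (h.pg.to_le (inf_le_left : Q ⊓ C1[u] ≤ Q))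
    rw [hn] at e3 ⊢
    refine (Nat.even_pow.2 ⟨even_two, fun e => ?_⟩)
    rw [e, pow_zero, eq_comm, pow_eq_one_iff] at e3
    omega
  have h1 := h.fixT hu ev
  have r1 : R2 C1[u] := by
    obtain ⟨x, hx, y, hy, f1, f2, f3, f4, f5, f6⟩ := r2_of_card
      (elem_of_le (h.Q0_el h.r2) (inf_le_left : Q0 G a ⊓ C1[u] ≤ _)) (by omega)
    exact ⟨⟨x, hx.2⟩, ⟨y, hy.2⟩, fun e => f1 (congrArg Subtype.val e), fun e => f2 (congrArg Subtype.val e),
      fun e => f3 (congrArg Subtype.val e), Subtype.ext f4, Subtype.ext f5, Subtype.ext f6⟩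
  have eQ := h.Q0_pull h.r2 (C1[u]).subtype_injective h1 r1
  have h2 := h1.push (Img.pr_surj _ _) (Img.pr_smul _ _)
  obtain ⟨r2, eQ2⟩ := h1.Q0_push r1 (Img.pr_surj _ _) (Img.pr_smul _ _)
  have h3 := C3.of h2 r2 ((h.pg.comap_of_injective _ (C1[u]).subtype_injective).map _) (by
    rintro _ ⟨x, hx, rfl⟩
    rw [eQ2, ← map_mul, eQ]
    exact mem_map_of_mem _ (h.sq hx)) (by
    rw [eQ2, h1.card_push (Img.pr_smul _ _) le_rfl, h1.card_push (Img.pr_smul _ _) h1.Q0_le, eQ,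
      CfsgH1.card_subgroupOf, e3]
    exact congrArg (· ^ 3) (CfsgH1.card_subgroupOf _ _).symm)
  refine ih _ _ _ _ _ ((Nat.card_le_card_of_surjective _ (Img.pr_surj _ _)).trans_lt ?_) h3 (eq_bot_iff.2 ?_)
  · rw [← card_top (G := G)]
    exact CfsgH2.card_lt_of_lt (lt_top_iff_ne_top.2 fun e => uK (le_cent1_iff.1 (e ▸ le_top)))
  · rw [D_push (Img.pr_surj _ _) (Img.pr_smul _ _), eQ2, eQ]
    rintro _ ⟨⟨d, hd, rfl⟩, hc⟩
    have dD : d.1 ∈ DD a t := ⟨congrArg FixT.val hd.1, congrArg FixT.val hd.2⟩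
    refine pr_zpowers (h.gal h.r2 hW hu dD d.2 (mem_cent_iff.2 fun z hz => ?_))
    have := mem_cent_iff.1 hc _ (mem_map_of_mem _ (show (⟨z, hz.2⟩ : C1[u]) ∈ _ from hz.1))
    have h4 := h1.push_inj (Img.pr_smul _ _) (x := (⟨z, hz.2⟩ : C1[u])⁻¹ * (d * ⟨z, hz.2⟩ * d⁻¹))
      (mul_mem (inv_mem (h.Q0_le hz.1)) (h.conj_Q dD.1 (h.Q0_le hz.1))) (by
        simp only [map_mul, map_inv]; rw [← this]; group)
    rw [inv_mul_eq_one, eq_mul_inv_iff_mul_eq] at h4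
    exact congrArg Subtype.val h4

theorem C3.W_ne (hZ : ZH.{u, v}) (n : ℕ) : ∀ (G : Type u) (Ω : Type v) [Group G] [Finite G] [MulAction G Ω]
    [FaithfulSMul G Ω] (a : Ω) (t : G) (Q : Subgroup G), Nat.card G < n → C3 a t Q → DD a t ⊓ C[Q0 G a] ≠ ⊥ := by
  induction n with
  | zero => intro G Ω _ _ _ _ a t Q h; omega
  | succ n ih =>
    intro G Ω _ _ _ _ a t Q hn h
    obtain ⟨h1, e⟩ := h.sub (L := Q ⊔ zpowers t) le_sup_left (mem_sup_right (mem_zpowers t))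
    haveI := h1.simple h1.r2 h.gen_L0
    have := W_step hZ h1 fun G' Ω' _ _ _ _ a' t' Q' hc => ih G' Ω' a' t' Q' (by
      have := Nat.card_le_card_of_injective _ (Q ⊔ zpowers t).subtype_injective
      omega)
    obtain ⟨d, hd, d1⟩ := ne_bot_iff'.1 this
    refine ne_bot_iff'.2 ⟨d.1, ⟨hd.1, mem_cent_iff.2 fun z hz => ?_⟩, fun e => d1 (Subtype.ext e)⟩
    exact congrArg Subtype.val (mem_cent_iff.1 hd.2 ⟨z, mem_sup_left (h.Q0_le hz)⟩ (e ▸ hz))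

theorem RO.psu (hZ : ZH.{u, v}) {G : Type u} {Ω : Type v} [Group G] [Finite G] [MulAction G Ω]
    [FaithfulSMul G Ω] [IsSimpleGroup G] {a : Ω} {t : G} {Q : Subgroup G} (h : RO a t Q) (h2 : R2 G)
    (hV : DD a t ⊓ C1[t] ≠ ⊥) : ∃ (F : Type) (_ : Field F) (_ : Fintype F) (n : ℕ), 2 ≤ n ∧
      Fintype.card F = (2 ^ n) ^ 2 ∧ Nonempty (G ≃* PSU 3 F (2 ^ n)) := by
  obtain ⟨h3, h4, h5⟩ := h.cube h2 h.perfect hV
  have hc : C3 a t Q := ⟨h, h2, h3, h4, h5⟩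
  exact hc.iso h.perfect (C3.W_ne hZ _ G Ω a t Q (Nat.lt_succ_self _) hc) h.gen_of_simple

end CfsgRO
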