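import Cfsg.Agent.H3.RO10
import Cfsg.Agent.H8.Za11
import Cfsg.Agent.S0225

/-! Suzuki's theorem on split rank one groups in characteristic two. -/

set_option autoImplicit false
open Subgroup Cfsg CfsgH2 CfsgH1 CfsgH3 Function MulAction
open scoped commutatorElement IsMulCommutative

namespace CfsgRO

universe u v

/-- The three families of simple groups in Suzuki's and Bender's theorems. -/
def Tri (G : Type*) [Group G] : Prop :=
  (∃ (F : Type) (_ : Field F) (_ : Fintype F), (∃ n : ℕ, 2 ≤ n ∧ Fintype.card F = 2 ^ n) ∧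
      Nonempty (G ≃* Matrix.ProjectiveSpecialLinearGroup (Fin 2) F)) ∨
    (Lie.IsoSuzuki G ∧ IsSuzuki G) ∨
    (∃ (F : Type) (_ : Field F) (_ : Fintype F) (n : ℕ), 2 ≤ n ∧ Fintype.card F = (2 ^ n) ^ 2 ∧
      Nonempty (G ≃* PSU 3 F (2 ^ n)))

section
variable {G Ω : Type*} [Group G] [Finite G] [MulAction G Ω] {a : Ω} {t : G} {Q : Subgroup G}

theorem RO.card_D (h : RO a t Q) (h2 : R2 G) :
    o[DD a t] = o[DD a t ⊓ C1[t]] * o[KK a t] := by
  rw [card_fac h.tt h.od h.tD']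
  congr 1
  exact Nat.card_congr (Equiv.subtypeEquivRight fun k => (h.mem_KK h2).symm)

theorem RO.zk [FaithfulSMul G Ω] [IsSimpleGroup G] (h : RO a t Q) (h2 : R2 G)
    (hV : DD a t ⊓ C1[t] = ⊥) : CfsgH8.Za.ZK a (t • a) Q :=
  CfsgH8.Za.ZK.of_reg (CfsgH8.Za.ZT.of (h.zas h2 hV)) h.ta.symm h.le (fun _ hg _ hk => h.conj_Q hg hk) h.reg

end

theorem zh : ZH.{u, v} := by
  intro G Ω _ _ _ _ _ a t Q h hV
  obtain ⟨F, _, _, n, hn, h1, h3, -⟩ :=
    CfsgH8.Za.suzuki (h.toRO.zas h.r2 hV) (h.toRO.zk h.r2 hV) h.pg h.nab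
  have h4 := h.toRO.card_D h.r2
  rw [hV, card_bot, one_mul] at h4
  have h5 := h.toRO.card_KK h.r2
  have h6 : Fintype.card F = o[Q0 G a] := by rw [← h3, ← h5, ← h4]
  have h7 := h.cd
  have h8 := h.four_le
  rw [h1, h6] at h7
  have := Nat.pow_right_injective (show 2 ≤ o[Q0 G a] by omega) h7
  omega

theorem RO.tri {G Ω : Type*} [Group G] [Finite G] [MulAction G Ω] [FaithfulSMul G Ω] [IsSimpleGroup G]
    {a : Ω} {t : G} {Q : Subgroup G} (h : RO a t Q) (h2 : R2 G) : Tri G := by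
  by_cases hV : DD a t ⊓ C1[t] = ⊥
  · have hZ := h.zas h2 hV
    have hk := h.zk h2 hV
    rcases CfsgH8.Za.odd_degree hZ hk h.ev with ⟨F, _, _, h1, -, h3⟩ | ⟨h1, h3⟩
    · exact Or.inl ⟨F, _, _, h1, h3⟩
    · exact Or.inr (Or.inl ⟨h3, CfsgH8.Za.isSuzuki hZ hk (CfsgH8.Za.pg_of_even hZ hk h.ev) h1⟩)
  · exact Or.inr (Or.inr (h.psu zh h2 hV))

theorem RO.tri_L0 {G Ω : Type*} [Group G] [Finite G] [MulAction G Ω] [FaithfulSMul G Ω]
    {a : Ω} {t : G} {Q : Subgroup G} (h : RO a t Q) (h2 : R2 G) : Tri ↥(Q ⊔ zpowers t) := by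
  have h' := h.sub (L := Q ⊔ zpowers t) le_sup_left (mem_sup_right (mem_zpowers t))
  have h2' := h.r2_sub h2 (L := Q ⊔ zpowers t) le_sup_left
  have := h'.simple h2' h.gen_L0
  exact h'.tri h2'

section
variable {G : Type*} [Group G] [Finite G]

theorem r2_of_klein {E : Subgroup G} (h : IsKleinFour E) : R2 G := by
  have hc : 2 < Nat.card E := by rw [h.card_four]; omega
  have : Nontrivial E := Finite.one_lt_card_iff_nontrivial.1 (by omega)
  obtain ⟨x, hx⟩ := exists_ne (1 : E)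
  have : Fintype E := Fintype.ofFinite _
  obtain ⟨y, hy1, hy2⟩ : ∃ y : E, y ≠ 1 ∧ y ≠ x := by
    by_contra hn
    push Not at hn
    classical
    have : (Finset.univ : Finset E) ⊆ {1, x} := fun y _ => by
      by_cases e : y = 1
      · simp [e]
      · simp [hn y e]
    have h3 := Finset.card_le_card this
    rw [Finset.card_univ, ← Nat.card_eq_fintype_card] at h3
    have := Finset.card_le_two (a := (1 : E)) (b := x)
    omega
  refine ⟨x, y, by simpa using hx, by simpa using hy1, fun e => hy2 (Subtype.ext e).symm, ?_, ?_, ?_⟩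
  · exact congrArg Subtype.val (IsKleinFour.mul_self x)
  · exact congrArg Subtype.val (IsKleinFour.mul_self y)
  · have h1 := IsKleinFour.mul_self (x * y)
    have h2 := IsKleinFour.mul_self x
    have h3 := IsKleinFour.mul_self y
    have : x * y = y * x := by
      calc x * y = (x * y)⁻¹ := (inv_eq_of_mul_eq_one_right h1).symm
        _ = y * x := by rw [mul_inv_rev, inv_eq_of_mul_eq_one_right h2, inv_eq_of_mul_eq_one_right h3]
    exact congrArg Subtype.val this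

/-- groups of 2-rank one (Brauer-Suzuki) -/
theorem bs_of_not_r2 (he : Even (Nat.card G)) (h : ¬ R2 G) :
    ∃ z : G, orderOf z = 2 ∧ ∃ N : Subgroup G, N.Normal ∧ Odd o[N] ∧ ∀ g : G, z * g * z⁻¹ * g⁻¹ ∈ N :=
  Cfsg.Agent.S0225.result he fun _ hE => h (r2_of_klein hE)

theorem r2_of_simple [IsSimpleGroup G] {X : Subgroup G} (h1 : X ≠ ⊤) (he : Even o[X]) : R2 G := by
  by_contra hn
  have he' : Even (Nat.card G) := even_iff_two_dvd.2 ((even_iff_two_dvd.1 he).trans (card_subgroup_dvd_card X))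
  obtain ⟨z, hz, N, hN, ho, hc⟩ := bs_of_not_r2 he' hn
  rcases hN.eq_bot_or_eq_top with e | e
  · have hz' : z ∈ center G := by
      rw [mem_center_iff]
      intro g
      have := hc g
      rw [e, mem_bot] at this
      calc g * z = (z * g * z⁻¹ * g⁻¹) * g * z := by rw [this, one_mul]
        _ = z * g := by group
    have hn : (zpowers z).Normal := ⟨fun x hx g => by
      have : x ∈ center G := (zpowers_le.2 hz') hx
      rw [mem_center_iff.1 this g, mul_inv_cancel_right]; exact hx⟩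
    rcases hn.eq_bot_or_eq_top with e' | e'
    · rw [zpowers_eq_bot] at e'
      rw [e', orderOf_one] at hz; omega
    · have h2 : Nat.card G = 2 := by rw [← card_top, ← e', Nat.card_zpowers, hz]
      apply h1
      apply eq_top_of_card_eq
      have h3 := Nat.le_of_dvd Nat.card_pos (card_subgroup_dvd_card X)
      have h4 : 0 < o[X] := Nat.card_pos
      obtain ⟨k, hk⟩ := he
      omega
  · rw [e, card_top] at ho
    exact (Nat.not_even_iff_odd.2 ho) he'

theorem faithful_quot [IsSimpleGroup G] {X : Subgroup G} (h1 : X ≠ ⊤) : FaithfulSMul G (G ⧸ X) := by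
  rcases (normalCore_normal X).eq_bot_or_eq_top with e | e
  · refine ⟨fun {g k} hg => ?_⟩
    have : k⁻¹ * g ∈ X.normalCore := by
      rw [normalCore_eq_ker, MonoidHom.mem_ker]
      ext b
      simp [mul_smul, hg b]
    rw [e, mem_bot] at this
    exact (inv_mul_eq_one.1 this).symm
  · exact absurd (top_le_iff.1 (e ▸ normalCore_le X)) h1

theorem se_exists_out {H : Subgroup G} (hH : IsStronglyEmbedded H) : ∃ t, t ∉ H ∧ orderOf t = 2 := by
  obtain ⟨h1, ⟨s, hs, ho⟩, h3⟩ := CfsgL0.se_iff.1 hH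
  obtain ⟨g, hg⟩ : ∃ g, g ∉ H := by
    by_contra hn
    push Not at hn
    exact h1 (eq_top_iff.2 fun g _ => hn g)
  exact ⟨g * s * g⁻¹, fun e => hg (h3 s hs ho g e), by rw [← ho]; exact (MulAut.conj g).orderOf_eq s⟩

theorem stab_quot (H : Subgroup G) (g : G) {x : G} :
    x ∈ stabilizer G (g • ((1 : G) : G ⧸ H)) ↔ g⁻¹ * x * g ∈ H := by
  rw [mem_stabilizer_iff, ← mul_smul]
  change ((x * g * 1 : G) : G ⧸ H) = ((g * 1 : G) : G ⧸ H) ↔ _
  rw [eq_comm, QuotientGroup.eq, mul_one, mul_one, mul_assoc]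

/-- the rank one set-up from a strongly embedded subgroup with a regular normal subgroup -/
theorem ro_of_se {H : Subgroup G} (hH : IsStronglyEmbedded H) {Q : Subgroup G} (hQH : Q ≤ H)
    (hn : H ≤ N[Q]) (htrans : ∀ g₁ g₂ : G, g₁ ∉ H → g₂ ∉ H → ∃ u ∈ Q, g₂⁻¹ * (u * g₁) ∈ H)
    (hreg : ∀ g : G, g ∉ H → ∀ u ∈ Q, g⁻¹ * (u * g) ∈ H → u = 1) {t : G} (ht : t ∉ H) (tt : t * t = 1) :
    RO ((1 : G) : G ⧸ H) t Q := by
  have hs : stabilizer G ((1 : G) : G ⧸ H) = H := stabilizer_quotient H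
  have ti := inv_of_sq tt
  have ne1 : ∀ g : G, (g : G ⧸ H) ≠ ((1 : G) : G ⧸ H) ↔ g ∉ H := fun g => by
    rw [ne_eq, eq_comm, QuotientGroup.eq]; simp
  have hD : ∀ x, x ∈ DD ((1 : G) : G ⧸ H) t ↔ x ∈ H ∧ t⁻¹ * x * t ∈ H := fun x => by
    rw [mem_inf, hs, stab_quot]
  have hsup : Q ⊔ DD ((1 : G) : G ⧸ H) t = H := by
    refine le_antisymm (sup_le hQH fun x hx => ((hD x).1 hx).1) fun x hx => ?_
    obtain ⟨u, hu, e⟩ := htrans (x * t) t (fun e => ht (by simpa using H.mul_mem (H.inv_mem hx) e)) ht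
    have : u * x ∈ DD ((1 : G) : G ⧸ H) t :=
      (hD _).2 ⟨H.mul_mem (hQH hu) hx, by simpa [mul_assoc] using e⟩
    simpa using mul_mem (mem_sup_left (S := Q) (T := DD ((1 : G) : G ⧸ H) t) (Q.inv_mem hu)) (mem_sup_right this)
  have hinf : Q ⊓ stabilizer G (t • ((1 : G) : G ⧸ H)) = ⊥ := by
    refine eq_bot_iff.2 fun x hx => mem_bot.2 (hreg t ht x hx.1 ?_)
    have := (stab_quot H t).1 hx.2
    rwa [mul_assoc] at this
  have hod : Odd o[DD ((1 : G) : G ⧸ H) t] := by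
    rw [CfsgL0.odd_card_iff]
    intro x hx ho
    have := (hD x).1 hx
    exact ht (by simpa using H.inv_mem (CfsgL0.se_mem hH this.1 ho (g := t⁻¹) (by simpa using this.2)))
  refine ⟨?_, tt, ?_, by rwa [hs], by rwa [hs], hinf, by rw [hsup, hs], ?_, hod⟩
  · have key : ∀ x y : G ⧸ H, x ≠ y → ∃ g : G, g • x = ((1 : G) : G ⧸ H) ∧ g • y = (t : G ⧸ H) := by
      intro x y hxy
      induction x using QuotientGroup.induction_on with | H x => ?_
      induction y using QuotientGroup.induction_on with | H y => ?_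
      have : x⁻¹ * y ∉ H := fun e => hxy (QuotientGroup.eq.2 e)
      obtain ⟨u, hu, e⟩ := htrans _ t this ht
      refine ⟨u * x⁻¹, ?_, ?_⟩
      · change ((u * x⁻¹ * x : G) : G ⧸ H) = _
        rw [eq_comm, QuotientGroup.eq]; simpa using hQH hu
      · change ((u * x⁻¹ * y : G) : G ⧸ H) = _
        rw [eq_comm, QuotientGroup.eq]; simpa [mul_assoc] using e
    intro x y z w h1 h2
    obtain ⟨g, e1, e2⟩ := key x y h1
    obtain ⟨k, e3, e4⟩ := key z w h2
    exact ⟨k⁻¹ * g, by rw [mul_smul, e1, ← e3, inv_smul_smul], by rw [mul_smul, e2, ← e4, inv_smul_smul]⟩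
  · change ((t * 1 : G) : G ⧸ H) ≠ _
    rw [ne1]; simpa using ht
  · by_contra hq
    obtain ⟨-, ⟨s, hs1, ho⟩, -⟩ := CfsgL0.se_iff.1 hH
    have hq' := Nat.not_even_iff_odd.1 hq
    rw [← hsup, mem_sup_of_norm' (fun x hx => hn ((hD x).1 hx).1)] at hs1
    obtain ⟨x, hx, d, hd, e⟩ := hs1
    have ss : s * s = 1 := (CfsgL0.orderOf_two_iff.1 ho).1
    have dH := ((hD d).1 hd).1
    have h3 : d * d ∈ Q := by
      have h4 : x * (d * x * d⁻¹) * (d * d) = 1 := by rw [← ss, ← e]; group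
      rw [eq_inv_of_mul_eq_one_right h4]
      exact Q.inv_mem (Q.mul_mem hx (conj_mem_of_norm (hn dH) hx))
    have h5 : d * d ∈ Q ⊓ stabilizer G (t • ((1 : G) : G ⧸ H)) := mem_inf.2 ⟨h3, (mul_mem hd hd).2⟩
    rw [hinf, mem_bot] at h5
    rw [eq_one_of_sq (odd_of_mem hod hd) h5, mul_one] at e
    exact CfsgL0.odd_card_iff.1 hq' s (e ▸ hx) ho

theorem tri_of_se [IsSimpleGroup G] {H : Subgroup G} (hH : IsStronglyEmbedded H) {Q : Subgroup G}
    (hQH : Q ≤ H) (hn : H ≤ N[Q])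
    (htrans : ∀ g₁ g₂ : G, g₁ ∉ H → g₂ ∉ H → ∃ u ∈ Q, g₂⁻¹ * (u * g₁) ∈ H)
    (hreg : ∀ g : G, g ∉ H → ∀ u ∈ Q, g⁻¹ * (u * g) ∈ H → u = 1) : Tri G := by
  obtain ⟨t, ht, ho⟩ := se_exists_out hH
  have := faithful_quot hH.1
  exact (ro_of_se hH hQH hn htrans hreg ht (CfsgL0.orderOf_two_iff.1 ho).1).tri (r2_of_simple hH.1 hH.2.1)

end

end CfsgRO
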