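import Cfsg.Agent.H3.RO3

/-! Split rank one set-up: the subgroup generated by `Q0` and `t` in matrix terms. -/

set_option autoImplicit false
open Subgroup Cfsg CfsgH2 CfsgH1 CfsgH3 Function MulAction
open scoped commutatorElement IsMulCommutative

namespace CfsgRO

/-- `t s t = s t s`, with field coordinates on `Q0` -/
structure L2 {G Ω : Type*} [Group G] [MulAction G Ω] (a : Ω) (t : G) (Q : Subgroup G) (s : G)
    {F : Type*} [Field F] (cz l : G → F) : Prop extends RO a t Q where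
  r2 : R2 G
  sI : s ∈ involutionsIn (SetLike.coe (stabilizer G a))
  str : t * s * t = s * t * s
  co : Co (KK a t) (Q0 G a) ⊥ cz l
  cs : cz s = 1

/-- `g` corresponds to the matrix with rows `(x, y)` and `(u, v)` -/
def Rel {G Ω : Type*} [Group G] [MulAction G Ω] (a : Ω) (t : G) {F : Type*} [Field F] (cz l : G → F)
    (g : G) (x y u v : F) : Prop :=
  x * v + y * u = 1 ∧ ((u = 0 ∧ ∃ z ∈ Q0 G a, ∃ k ∈ KK a t, cz z = x * y ∧ l k = x ^ 2 ∧ g = z * k) ∨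
    (u ≠ 0 ∧ ∃ z ∈ Q0 G a, ∃ k ∈ KK a t, ∃ z' ∈ Q0 G a, cz z * u = x ∧ l k * u ^ 2 = 1 ∧
      cz z' * u = v ∧ g = z * k * t * z'))

variable {G Ω : Type*} [Group G] [Finite G] [MulAction G Ω] {a : Ω} {t : G} {Q : Subgroup G}

local notation "H" => stabilizer G a
local notation "D" => DD a t
local notation "K" => invertedBy (DD a t) t
local notation "I" => involutionsIn (SetLike.coe (stabilizer G a))

namespace RO

theorem tzt (h : RO a t Q) {s m : G} (e : t * s * t = s * t * s) (hm : m ∈ K) :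
    t * (m * s * m⁻¹) * t = (m⁻¹ * s * m) * (m⁻¹ * m⁻¹) * t * (m⁻¹ * s * m) := by
  have h1 := h.tk' hm
  have h2 := h.kt (inverted_inv hm)
  rw [inv_inv] at h2
  calc t * (m * s * m⁻¹) * t = (t * m) * s * (m⁻¹ * t) := by group
    _ = (m⁻¹ * t) * s * (t * m) := by rw [h1]
    _ = m⁻¹ * (t * s * t) * m := by group
    _ = m⁻¹ * s * (t * m) * (m⁻¹ * s * m) := by rw [e]; group
    _ = _ := by rw [h1]; group

theorem KK_conj (h : RO a t Q) {k z : G} (hk : k ∈ KK a t) (hz : z ∈ Q0 G a) : k * z * k⁻¹ ∈ Q0 G a :=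
  conj_mem_of_norm (n_Q0 (KK_le hk).1) hz

theorem KK_sqrt (h : RO a t Q) (h2 : R2 G) {k : G} (hk : k ∈ KK a t) : ∃ m ∈ KK a t, m * m = k := by
  obtain ⟨m, hm, e, -⟩ := inverted_sqrt h.od ((h.mem_KK h2).1 hk)
  exact ⟨m, (h.mem_KK h2).2 hm, e⟩

theorem W_z {w z : G} (hw : w ∈ D ⊓ C[Q0 G a]) (hz : z ∈ Q0 G a) : w * z = z * w :=
  (mem_cent_iff.1 hw.2 z hz).symm

theorem W_k (h : RO a t Q) {w k : G} (hw : w ∈ D ⊓ C[Q0 G a]) (hk : k ∈ KK a t) : w * k = k * w :=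
  (mem_cent_iff.1 (h.W_K hw) k hk).symm

theorem W_tt (h : RO a t Q) {w : G} (hw : w ∈ D ⊓ C[Q0 G a]) : w * t = t * w := mc1.1 (h.W_t hw)

theorem semi1 (h : RO a t Q) (h2 : R2 G) {w z k : G} (hw : w ∈ D ⊓ C[Q0 G a]) (hz : z ∈ Q0 G a)
    (hk : k ∈ KK a t) {p : Ω} (hp : w • p ≠ p) (e : (z * k) • p = p) : z * k = 1 := by
  have pa : p ≠ a := fun e => hp (by rw [e]; exact hw.1.1)
  obtain ⟨x, hx, rfl⟩ := h.ex_q pa
  have kD := KK_le hk
  have f : ∀ y ∈ Q, (z * k) • y • t • a = y • t • a → z * (k * y * k⁻¹) = y := fun y hy e =>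
    h.q_inj (mul_mem (h.Q0_le hz) (h.conj_Q kD.1 hy)) hy h.ta (by
      rw [← e]; simp only [mul_smul]; rw [show k⁻¹ • t • a = t • a from (inv_mem kD : k⁻¹ ∈ D).2])
  have e1 := f x hx e
  have hw' : (w * x * w⁻¹) • t • a = w • x • t • a := by
    rw [mul_smul, mul_smul, show w⁻¹ • t • a = t • a from (inv_mem hw.1 : w⁻¹ ∈ D).2]
  have e2 := f _ (h.conj_Q hw.1.1 hx) (by
    rw [hw', ← mul_smul, show z * k * w = w * (z * k) by
      rw [mul_assoc, ← h.W_k hw hk, ← mul_assoc, ← W_z hw hz, mul_assoc], mul_smul, e])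
  by_cases k1 : k = 1
  · subst k1
    rw [mul_one] at e ⊢
    exact h.q_fix (h.Q0_le hz) pa e
  exfalso
  have : x⁻¹ * (w * x * w⁻¹) ∈ Q ⊓ C1[k] := mem_inf.2 ⟨mul_mem (inv_mem hx) (h.conj_Q hw.1.1 hx), mc1.2 (by
    calc x⁻¹ * (w * x * w⁻¹) * k = (z * (k * x * k⁻¹))⁻¹ * (z * (k * (w * x * w⁻¹) * k⁻¹)) * k := by
          rw [e1, e2]
      _ = _ := by group)⟩
  rw [h.K_fpf ((h.mem_KK h2).1 hk) k1, mem_bot, inv_mul_eq_one] at this
  exact hp (by rw [← hw', ← this])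

theorem semi2 (h : RO a t Q) (h2 : R2 G) {w z k : G} (hw : w ∈ D ⊓ C[Q0 G a]) (hz : z ∈ Q0 G a)
    (hk : k ∈ KK a t) {p : Ω} (hp : w • p ≠ p) (e : (z * k * t) • p = p) : False := by
  have hk' := (h.mem_KK h2).1 hk
  have kk := (h.mem_K.1 hk').2
  have cm : ∀ b : Ω, (z * k * t) • b = b → (z * k * t) • w • b = w • b := fun b hb => by
    rw [← mul_smul, show z * k * t * w = w * (z * k * t) by
      rw [mul_assoc, ← h.W_tt hw, ← mul_assoc, mul_assoc z, ← h.W_k hw hk, ← mul_assoc, ← W_z hw hz]; group,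
      mul_smul, hb]
  have nH : z * k * t ∉ H := by
    simpa using h.bru_nmem (mul_mem (h.le (h.Q0_le hz)) (KK_le hk).1) (one_mem _)
  have y1 : z * k * t ≠ 1 := fun e => nH (e ▸ one_mem _)
  by_cases z1 : z = 1
  · subst z1
    rw [one_mul] at *
    exact hp (h.inv_fix_unique y1 kk (cm p e) e)
  have z2 := ((h.mem_Q0 h2).1 hz).2
  have pa : p ≠ a := fun e => hp (by rw [e]; exact hw.1.1)
  have zp : z • p ≠ p := fun e => z1 (h.q_fix (h.Q0_le hz) pa e)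
  have inv : z * (z * k * t) * z = (z * k * t)⁻¹ := by
    rw [mul_assoc z k, mul_inv_rev, inv_of_sq kk, inv_of_sq z2, ← mul_assoc, z2, one_mul]
  have f1 := (h.real_fix z2 inv y1 e zp (cm p e)).resolve_left hp
  rcases h.real_fix z2 inv y1 e zp (cm _ (cm p e)) with f2 | f2
  · have f3 : (w * w) ∈ stabilizer G p := by rw [mem_stabilizer_iff, mul_smul, f2]
    obtain ⟨n, hn⟩ := odd_of_mem h.od hw.1
    have : w = ((w * w) ^ n)⁻¹ := by
      rw [eq_inv_iff_mul_eq_one, ← pow_two, ← pow_mul, ← pow_succ', ← hn, pow_orderOf_eq_one]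
    exact hp (by rw [this]; exact inv_mem (pow_mem f3 n))
  · rw [← f1] at f2
    exact hp ((smul_left_cancel_iff w).1 f2)

theorem card_Ku (h : RO a t Q) (h2 : R2 G) {U : Subgroup G} (hU : U ≤ D ⊓ C1[t]) :
    o[KK a t ⊓ C[U]] + 1 = o[Q0 G a ⊓ C[U]] := by
  obtain ⟨s, hs, r, hr, e⟩ := h.exists_str
  have us : ∀ u ∈ U, u * s * u⁻¹ = s := fun u hu => (h.V_le hs hr e (hU hu)).1
  let f : Option ↥(KK a t ⊓ C[U]) → ↥(Q0 G a ⊓ C[U]) := fun o => match o with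
    | none => 1
    | some k => ⟨k.1⁻¹ * s * k.1, conj_mem_of_norm' (n_Q0 (KK_le k.2.1).1) (I_Q0 hs),
        (C[U]).mul_mem ((C[U]).mul_mem ((C[U]).inv_mem (mem_inf.1 k.2).2)
          (mem_cent_iff.2 fun u hu => mul_inv_eq_iff_eq_mul.1 (us u hu))) (mem_inf.1 k.2).2⟩
  have ne : ∀ k : G, k⁻¹ * s * k ≠ 1 := fun k e => hs.2.1 (by
    rw [show s = k * (k⁻¹ * s * k) * k⁻¹ by group, e]; group)
  have hb : Bijective f := by
    constructor
    · rintro (_ | k) (_ | k') e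
      · rfl
      · exact absurd (congrArg Subtype.val e).symm (ne _)
      · exact absurd (congrArg Subtype.val e) (ne _)
      · exact congrArg some (Subtype.ext (h.K_inj hs ((h.mem_KK h2).1 k.2.1) ((h.mem_KK h2).1 k'.2.1)
          (congrArg Subtype.val e)))
    · rintro ⟨z, hz, hz'⟩
      by_cases z1 : z = 1
      · exact ⟨none, Subtype.ext z1.symm⟩
      obtain ⟨k, hk, e⟩ := h.K_trans hs (h.Q0_I h2 hz z1)
      refine ⟨some ⟨k, (h.mem_KK h2).2 hk, mem_cent_iff.2 fun u hu => mul_inv_eq_iff_eq_mul.1 ?_⟩,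
        Subtype.ext e⟩
      refine h.K_inj hs (inverted_conj hk (hU hu)) hk ?_
      calc (u * k * u⁻¹)⁻¹ * s * (u * k * u⁻¹) = u * (k⁻¹ * (u⁻¹ * (u * s * u⁻¹) * u) * k) * u⁻¹ := by
            rw [us u hu]; group
        _ = u * z * u⁻¹ := by rw [← e]; group
        _ = _ := by rw [mem_cent_iff.1 hz' u hu, e]; group
  rw [← Nat.card_eq_of_bijective f hb, Finite.card_option]

end RO

namespace L2

variable {s : G} {F : Type*} [Field F] [CharP F 2] {cz l : G → F}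

theorem inj (h : L2 a t Q s cz l) {z z' : G} (hz : z ∈ Q0 G a) (hz' : z' ∈ Q0 G a) (e : cz z = cz z') :
    z = z' := by
  have := (h.co.eq_iff hz hz').1 e
  rwa [mem_bot, inv_mul_eq_one] at this

theorem tz (h : L2 a t Q s cz l) {z : G} (hz : z ∈ Q0 G a) (h1 : cz z ≠ 0) : ∃ z' ∈ Q0 G a, ∃ m ∈ KK a t,
    cz z' * cz z = 1 ∧ l m * cz z ^ 2 = 1 ∧ t * z * t = z' * m * t * z' := by
  obtain ⟨m, hm, e⟩ := h.co.lsurj _ h1
  have hs := RO.I_Q0 h.sI
  have : z = m * s * m⁻¹ := h.inj hz (h.KK_conj hm hs) (by rw [h.co.conj m hm s hs, h.cs, mul_one, e])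
  refine ⟨m⁻¹ * s * m, conj_mem_of_norm' (h.co.nX hm) hs, m⁻¹ * m⁻¹, mul_mem (inv_mem hm) (inv_mem hm),
    ?_, ?_, ?_⟩
  · rw [h.co.conj' hm hs, h.cs, e]; field_simp
  · rw [h.co.lmul (inv_mem hm) (inv_mem hm), h.co.linv hm, e]; field_simp
  · rw [this, h.tzt h.str ((h.mem_KK h.r2).1 hm)]

theorem rel_one (h : L2 a t Q s cz l) : Rel a t cz l 1 1 0 0 1 :=
  ⟨by simp, .inl ⟨rfl, 1, one_mem _, 1, one_mem _, by simp [h.co.one], by simp [h.co.lone], by simp⟩⟩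

theorem rel_z (h : L2 a t Q s cz l) {g z : G} {x y u v : F} (r : Rel a t cz l g x y u v)
    (hz : z ∈ Q0 G a) : Rel a t cz l (z * g) (x + cz z * u) (y + cz z * v) u v := by
  have c2 : (2 : F) = 0 := CharTwo.two_eq_zero
  obtain ⟨r0, ⟨r1, z1, hz1, k, hk, e1, e2, rfl⟩ | ⟨r1, z1, hz1, k, hk, z2, hz2, e1, e2, e3, rfl⟩⟩ := r
  · subst r1
    refine ⟨by linear_combination r0, .inl ⟨rfl, z * z1, mul_mem hz hz1, k, hk, ?_, by simpa using e2,
      by group⟩⟩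
    rw [h.co.add _ hz _ hz1, e1]
    linear_combination (-cz z) * r0
  · refine ⟨by linear_combination r0 + cz z * u * v * c2, .inr ⟨r1, z * z1, mul_mem hz hz1, k, hk, z2, hz2,
      ?_, e2, e3, by group⟩⟩
    rw [h.co.add _ hz _ hz1]; linear_combination e1

theorem rel_k (h : L2 a t Q s cz l) {g m : G} {x y u v μ : F} (r : Rel a t cz l g x y u v)
    (hm : m ∈ KK a t) (e : l m = μ ^ 2) : Rel a t cz l (m * g) (μ * x) (μ * y) (μ⁻¹ * u) (μ⁻¹ * v) := by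
  have h0 : μ ≠ 0 := fun e' => h.co.lne hm (by rw [e, e']; simp)
  obtain ⟨r0, ⟨r1, z1, hz1, k, hk, e1, e2, rfl⟩ | ⟨r1, z1, hz1, k, hk, z2, hz2, e1, e2, e3, rfl⟩⟩ := r
  · refine ⟨by rw [← r0]; field_simp, .inl ⟨by rw [r1, mul_zero], m * z1 * m⁻¹, h.KK_conj hm hz1, m * k,
      mul_mem hm hk, ?_, ?_, by group⟩⟩
    · rw [h.co.conj _ hm _ hz1, e, e1]; ring
    · rw [h.co.lmul hm hk, e, e2]; ring
  · refine ⟨by rw [← r0]; field_simp, .inr ⟨mul_ne_zero (inv_ne_zero h0) r1, m * z1 * m⁻¹,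
      h.KK_conj hm hz1, m * k, mul_mem hm hk, z2, hz2, ?_, ?_, ?_, by group⟩⟩
    · rw [h.co.conj _ hm _ hz1, e, ← e1]; field_simp
    · rw [h.co.lmul hm hk, e, ← e2]; field_simp
    · rw [← e3]; ring

theorem rel_t (h : L2 a t Q s cz l) {g : G} {x y u v : F} (r : Rel a t cz l g x y u v) :
    Rel a t cz l (t * g) u v x y := by
  have c2 : (2 : F) = 0 := CharTwo.two_eq_zero
  obtain ⟨r0, ⟨r1, z1, hz1, k, hk, e1, e2, rfl⟩ | ⟨r1, z1, hz1, k, hk, z2, hz2, e1, e2, e3, rfl⟩⟩ := r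
  · have hk' := (h.mem_KK h.r2).1 hk
    subst r1
    have x0 : x ≠ 0 := left_ne_zero_of_mul_eq_one (by simpa using r0 : x * v = 1)
    refine ⟨by linear_combination r0, .inr ⟨x0, 1, one_mem _, k⁻¹, inv_mem hk, k⁻¹ * z1 * k,
      conj_mem_of_norm' (h.co.nX hk) hz1, by simp [h.co.one], ?_, ?_, ?_⟩⟩
    · rw [h.co.linv hk, e2]; field_simp
    · rw [h.co.conj' hk hz1, e1, e2]; field_simp
    · rw [one_mul, ← h.tk' hk']; group
  · have hk' := (h.mem_KK h.r2).1 hk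
    by_cases x0 : x = 0
    · have : z1 = 1 := h.inj hz1 (one_mem _) (by
        rw [h.co.one]; rw [x0] at e1; exact (mul_eq_zero.1 e1).resolve_right r1)
      subst this
      refine ⟨by linear_combination r0, .inl ⟨x0, k⁻¹ * z2 * k, conj_mem_of_norm' (h.co.nX hk) hz2, k⁻¹,
        inv_mem hk, ?_, ?_, ?_⟩⟩
      · rw [h.co.conj' hk hz2, ← e3, ← eq_inv_of_mul_eq_one_right e2]; ring
      · rw [h.co.linv hk, ← eq_inv_of_mul_eq_one_right e2]
      · rw [one_mul, ← mul_assoc, ← mul_assoc, h.tk hk']; group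
    · obtain ⟨z', hz', m, hm, f1, f2, f3⟩ := h.tz hz1 (fun e => x0 (by rw [← e1, e, zero_mul]))
      refine ⟨by linear_combination r0, .inr ⟨x0, z', hz', m * k, mul_mem hm hk, k * z' * k⁻¹ * z2,
        mul_mem (h.KK_conj hk hz') hz2, ?_, ?_, ?_, ?_⟩⟩
      · rw [← e1]; linear_combination u * f1
      · rw [h.co.lmul hm hk, ← e1]; linear_combination (l k * u ^ 2) * f2 + e2
      · rw [h.co.add _ (h.KK_conj hk hz') _ hz2, h.co.conj _ hk _ hz']
        refine mul_left_cancel₀ r1 ?_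
        rw [← e1, ← e3] at r0
        rw [← e1]
        linear_combination (l k * u ^ 2) * f1 + e2 + r0 + (1 - y * u) * c2
      · calc t * (z1 * k * t * z2) = t * z1 * (k * t) * z2 := by group
          _ = (t * z1 * t) * k⁻¹ * z2 := by rw [h.kt hk']; group
          _ = z' * m * (t * k⁻¹) * (k * z' * k⁻¹ * z2) := by rw [f3]; group
          _ = _ := by rw [← h.kt hk']; group

theorem rel_eq_one (h : L2 a t Q s cz l) {x y u v : F} (r : Rel a t cz l 1 x y u v) :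
    x = 1 ∧ y = 0 ∧ u = 0 ∧ v = 1 := by
  obtain ⟨r0, ⟨r1, z1, hz1, k, hk, e1, e2, e⟩ | ⟨r1, z1, hz1, k, hk, z2, hz2, e1, e2, e3, e⟩⟩ := r
  · obtain ⟨rfl, rfl⟩ := h.dec_unique (one_mem _) (one_mem _) (h.Q0_le hz1) (RO.KK_le hk)
      ((mul_one _).trans e)
    rw [h.co.lone] at e2
    have : x = 1 := by
      have : (x + 1) ^ 2 = 0 := by rw [CharTwo.add_sq, ← e2, one_pow, CharTwo.add_self_eq_zero]
      exact CharTwo.add_eq_zero.1 (pow_eq_zero_iff two_ne_zero |>.1 this)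
    subst this r1
    rw [h.co.one] at e1
    exact ⟨rfl, by simpa using e1.symm, rfl, by simpa using r0⟩
  · exact absurd (e ▸ one_mem _) (h.bru_nmem (mul_mem (h.le (h.Q0_le hz1)) (RO.KK_le hk).1)
      (h.le (h.Q0_le hz2)))

theorem semi (h : L2 a t Q s cz l) {g w : G} {x y u v : F} (r : Rel a t cz l g x y u v)
    (hw : w ∈ D ⊓ C[Q0 G a]) {p : Ω} (hp : w • p ≠ p) (e : g • p = p) : g = 1 := by
  obtain ⟨r0, ⟨r1, z1, hz1, k, hk, e1, e2, rfl⟩ | ⟨r1, z1, hz1, k, hk, z2, hz2, e1, e2, e3, rfl⟩⟩ := r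
  · exact h.semi1 h.r2 hw hz1 hk hp e
  · refine (h.semi2 h.r2 hw (mul_mem hz2 hz1) hk (p := z2 • p) (fun e' => hp ?_) ?_).elim
    · rw [← mul_smul, RO.W_z hw hz2, mul_smul] at e'
      exact (smul_left_cancel_iff z2).1 e'
    · rw [← mul_smul, show z2 * z1 * k * t * z2 = z2 * (z1 * k * t * z2) by group, mul_smul, e]

/-- membership in the subgroup generated by `Q0` and `t` -/
def InL {G Ω : Type*} [Group G] [MulAction G Ω] (a : Ω) (t : G) {F : Type*} [Field F] (cz l : G → F)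
    (g : G) : Prop := ∃ x y u v, Rel a t cz l g x y u v

theorem in_one (h : L2 a t Q s cz l) : InL a t cz l 1 := ⟨_, _, _, _, h.rel_one⟩

theorem in_z (h : L2 a t Q s cz l) {g z : G} (hz : z ∈ Q0 G a) (r : InL a t cz l g) :
    InL a t cz l (z * g) := by
  obtain ⟨_, _, _, _, r⟩ := r; exact ⟨_, _, _, _, h.rel_z r hz⟩

theorem in_t (h : L2 a t Q s cz l) {g : G} (r : InL a t cz l g) : InL a t cz l (t * g) := by
  obtain ⟨_, _, _, _, r⟩ := r; exact ⟨_, _, _, _, h.rel_t r⟩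

theorem in_k (h : L2 a t Q s cz l) {g k : G} (hk : k ∈ KK a t) (r : InL a t cz l g) :
    InL a t cz l (k * g) := by
  obtain ⟨_, _, _, _, r⟩ := r
  obtain ⟨m, hm, rfl⟩ := h.KK_sqrt h.r2 hk
  exact ⟨_, _, _, _, h.rel_k r hk (μ := l m) (by rw [h.co.lmul hm hm, pow_two])⟩

theorem pow_rel (h : L2 a t Q s cz l) {z : G} (hz : z ∈ Q0 G a) (n : ℕ) :
    ∃ x y : F, x ^ 2 + x * y * cz z + y ^ 2 = 1 ∧ ∀ g x1 y1 u1 v1, Rel a t cz l g x1 y1 u1 v1 →
      Rel a t cz l ((z * t) ^ n * g) ((x + y * cz z) * x1 + y * u1) ((x + y * cz z) * y1 + y * v1)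
        (y * x1 + x * u1) (y * y1 + x * v1) := by
  induction n with
  | zero => exact ⟨1, 0, by simp, fun g x1 y1 u1 v1 r => by simpa using r⟩
  | succ n ih =>
    have c2 : (2 : F) = 0 := CharTwo.two_eq_zero
    obtain ⟨x, y, e, r⟩ := ih
    refine ⟨y, x + y * cz z, by linear_combination e + (x * y * cz z + y ^ 2 * cz z ^ 2) * c2, fun g x1 y1 u1 v1 r1 => ?_⟩
    have := h.rel_z (h.rel_t (r g _ _ _ _ r1)) hz
    rw [pow_succ', mul_assoc, mul_assoc]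
    convert this using 1 <;> ring

end L2

end CfsgRO
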