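import Cfsg.Agent.H3.RO4
import Cfsg.Agent.H3.Wiel

/-! Split rank one set-up with `|Q| = q ^ 3` and `W ≠ 1`: the structure element `x0`. -/

set_option autoImplicit false
open Subgroup Cfsg CfsgH2 CfsgH1 CfsgH3 Function MulAction
open scoped commutatorElement IsMulCommutative

namespace CfsgRO

theorem mem_zpowers_of_cyc {A : Type*} [Group A] [Finite A] [IsCyclic A] {p : ℕ} (hp : p.Prime) {x y : A}
    (hx : x ^ p = 1) (hy : y ^ p = 1) (h1 : y ≠ 1) : x ∈ zpowers y := by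
  haveI := Fact.mk hp
  have he : IsElementaryAbelian p (zpowers y ⊔ zpowers x) := elem_sup (elem_zpowers hy) (elem_zpowers hx)
    (fun u _ => mem_cent_iff.2 fun v _ => mul_comm' v u)
  have := card_dvd_of_elem_cyclic he inferInstance
  rw [eq_of_le_card (le_sup_left : zpowers y ≤ zpowers y ⊔ zpowers x)
    (by rw [card_zpowers_eq hp hy h1]; exact Nat.le_of_dvd hp.pos this)]
  exact mem_sup_right (mem_zpowers x)

theorem mul_pow_mem {A : Type*} [Group A] {X : Subgroup A} {x g : A} (hx : x ∈ X) (hg : g ∈ N[X]) (n : ℕ) :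
    (x * g) ^ n * (g ^ n)⁻¹ ∈ X := by
  induction n with
  | zero => simp
  | succ n ih =>
    have := mul_mem hx (conj_mem_of_norm hg ih)
    rwa [show x * (g * ((x * g) ^ n * (g ^ n)⁻¹) * g⁻¹) = (x * g) ^ (n + 1) * (g ^ (n + 1))⁻¹ by
      rw [pow_succ' (x * g), pow_succ' g]; group] at this

variable {G Ω : Type*} [Group G] [Finite G] [MulAction G Ω] {a : Ω} {t : G} {Q : Subgroup G}

local notation "H" => stabilizer G a
local notation "D" => DD a t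
local notation "K" => invertedBy (DD a t) t
local notation "I" => involutionsIn (SetLike.coe (stabilizer G a))

namespace RO

theorem cent_pow (h : RO a t Q) (h2 : R2 G) {p : ℕ} (hp : p.Prime) {u : G} (hu : u ∈ D ⊓ C1[t])
    (up : u ^ p = 1) (hW : u ∉ C[KK a t]) (hd : p ∣ o[Q0 G a] + 1) {X : Subgroup G} (hX : X ≤ Q)
    (hn : D ≤ N[X]) (hs : PG[2, X]) : o[X] = o[X ⊓ C[zpowers u]] ^ p := by
  have u1 : u ≠ 1 := fun e => hW (e ▸ one_mem _)
  have cu := card_zpowers_eq hp up u1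
  have uK : zpowers u ≤ N[KK a t] := zpowers_le.2 (h.n_KK hu.1)
  have uD : zpowers u ≤ D := zpowers_le.2 hu.1
  have cop : o[zpowers u].Coprime o[KK a t] := by
    rw [cu, hp.coprime_iff_not_dvd]
    intro e
    rw [← h.card_KK h2, add_assoc, Nat.dvd_add_right e] at hd
    have := (Nat.prime_dvd_prime_iff_eq hp Nat.prime_two).1 hd
    have h3 := odd_of_le h.od uD
    rw [cu, this] at h3
    exact absurd h3 (by decide)
  have h0 : ⁅KK a t, zpowers u⁆ ≠ ⊥ := fun e => hW (le_cent1_iff.1 (cent_zpowers u ▸ comm_eq_bot_iff.1 e))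
  have le : ⁅KK a t, zpowers u⁆ ≤ KK a t := comm_le_left uK
  have fr := frob_of_prime (R := zpowers u) (cu ▸ hp) le_norm_comm_right h0
    (coprime_comm_inf_cent (h.KK_ab h2) uK cop)
  have lD : ⁅KK a t, zpowers u⁆ ⊔ zpowers u ≤ D := sup_le (le.trans KK_le) uD
  obtain ⟨n, hn'⟩ := exists_card_eq_pow hs
  rw [← cu]
  refine wielandt_of_cent_eq_bot fr (lD.trans hn) (by haveI := hs.isNilpotent; infer_instance)
    (by rw [hn']; exact Nat.Coprime.pow_right _ (Nat.coprime_two_right.2 (odd_of_le h.od lD))) ?_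
  obtain ⟨k, hk, k1⟩ := ne_bot_iff'.1 h0
  rw [eq_bot_iff, ← h.K_fpf ((h.mem_KK h2).1 (le hk)) k1]
  exact inf_le_inf hX fun x hx => mc1.2 (mem_cent_iff.1 hx k hk).symm

theorem smul_ta {d : G} (hd : d ∈ D) (x : G) : (d * x * d⁻¹) • t • a = d • x • t • a := by
  rw [mul_smul, mul_smul, show d⁻¹ • t • a = t • a from (inv_mem hd : d⁻¹ ∈ D).2]

theorem fix_iff (h : RO a t Q) {d x : G} (hd : d ∈ D) (hx : x ∈ Q) :
    d • x • t • a = x • t • a ↔ x ∈ C1[d] := by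
  rw [← smul_ta hd, mc1]
  exact ⟨fun e => (mul_inv_eq_iff_eq_mul.1 (h.q_inj (h.conj_Q hd.1 hx) hx h.ta e)).symm,
    fun e => by rw [← e, mul_inv_cancel_right]⟩

theorem pow_D (h : RO a t Q) {d f : G} (hd : d ∈ D) (hf : f ∈ Q) {n : ℕ} (e : (d * f) ^ n = 1) :
    d ^ n = 1 := by
  have := mul_pow_mem (h.conj_Q hd.1 hf) (h.nQ hd.1) n
  rw [inv_mul_cancel_right, e, one_mul] at this
  exact h.eq_one_D ((inv_mem_iff).1 this) (pow_mem hd n)

theorem pow_V (h : RO a t Q) (h2 : R2 G) {k v : G} (hk : k ∈ K) (hv : v ∈ D ⊓ C1[t]) {n : ℕ}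
    (e : (k * v) ^ n = 1) : v ^ n = 1 := by
  have := mul_pow_mem ((h.mem_KK h2).2 hk) (h.n_KK hv.1) n
  rw [e, one_mul] at this
  exact h.K_V ((h.mem_KK h2).1 ((inv_mem_iff).1 this)) (pow_mem (mem_inf.1 hv).2 n)

theorem KV_unique (h : RO a t Q) (h2 : R2 G) {k v k' v' : G} (hk : k ∈ K) (hv : v ∈ D ⊓ C1[t])
    (hk' : k' ∈ K) (hv' : v' ∈ D ⊓ C1[t]) (e : k * v = k' * v') : k = k' ∧ v = v' := by
  have e1 : k'⁻¹ * k = v' * v⁻¹ := by rw [inv_mul_eq_iff_eq_mul, ← mul_assoc, ← e]; group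
  have := h.K_V ((h.mem_KK h2).1 (mul_mem (inv_mem ((h.mem_KK h2).2 hk')) ((h.mem_KK h2).2 hk)))
    (e1 ▸ mul_mem (mem_inf.1 hv').2 (inv_mem (mem_inf.1 hv).2))
  exact ⟨(inv_mul_eq_one.1 this).symm, (mul_inv_eq_one.1 (e1 ▸ this)).symm⟩

theorem exists_L2 (h : RO a t Q) (h2 : R2 G) {s : G} (hs : s ∈ I) (e : t * s * t = s * t * s) :
    ∃ (F : Type) (_ : Field F) (_ : Finite F) (_ : CharP F 2) (cz l : G → F), L2 a t Q s cz l := by
  obtain ⟨n, hn, e'⟩ := h.card_Q0 h2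
  have hF : Nat.card (GaloisField 2 n) = o[Q0 G a] := by rw [e', GaloisField.card 2 n (by omega)]
  obtain ⟨c, l, co, h1⟩ := h.exists_co h2 hF hs
  exact ⟨_, _, inferInstance, inferInstance, c, l, h, h2, hs, e, co, h1⟩

end RO

namespace C3

theorem cyc_W [FaithfulSMul G Ω] (h : C3 a t Q) {A : Subgroup G} (hA : A ≤ D ⊓ C[Q0 G a]) (ab : Ab[A]) :
    Cyc[A] := by
  by_contra hc
  obtain ⟨n, hn⟩ := exists_card_eq_pow h.pg
  have : Q ≤ Q0 G a := le_of_cent1 ab hc ((hA.trans (inf_le_left.trans inf_le_left)).trans h.nQ)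
    (by rw [hn]; exact Nat.Coprime.pow_right _ (Nat.coprime_two_right.2 (odd_of_le h.od (hA.trans inf_le_left))))
    (fun w hw w1 => (h.cent_W (hA hw) w1).le)
  exact h.nab (le_antisymm this h.Q0_le ▸ h.Q0_ab h.r2)

theorem exists_zeta [FaithfulSMul G Ω] (h : C3 a t Q) (hW : D ⊓ C[Q0 G a] ≠ ⊥) :
    ∃ p : ℕ, p.Prime ∧ ∃ w ∈ D ⊓ C[Q0 G a], w ≠ 1 ∧ w ^ p = 1 ∧
      (∀ v ∈ D, v ^ p = 1 → v * w = w * v) ∧ ∀ v ∈ D ⊓ C[Q0 G a], v ^ p = 1 → v ∈ zpowers w := by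
  obtain ⟨p, hp, A, h1, h0, hn, he, -⟩ := exists_min_norm (M := D) (ft (odd_of_le h.od inf_le_left)) hW
    (le_norm_inf le_normalizer (le_norm_cent (inf_le_left.trans RO.n_Q0)))
  obtain ⟨w, hw, w1⟩ := ne_bot_iff'.1 h0
  have cA : o[A] = p := ((Nat.dvd_prime hp.out).1 (card_dvd_of_elem_cyclic he (h.cyc_W h1 he.1))).resolve_left
    (fun e => h0 (card_eq_one.1 e))
  have cm : ∀ v ∈ D, v ^ p = 1 → v * w = w * v := fun v hv vp =>
    (mem_cent_iff.1 (le_cent_of_card_prime (elem_pgroup (elem_zpowers vp)) (zpowers_le.2 (hn hv)) cA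
      (mem_zpowers v)) w hw).symm
  refine ⟨p, hp.out, w, h1 hw, w1, he.2 w hw, cm, fun v hv vp => ?_⟩
  have hB : zpowers w ⊔ zpowers v ≤ D ⊓ C[Q0 G a] := sup_le (zpowers_le.2 (h1 hw)) (zpowers_le.2 hv)
  haveI := h.cyc_W hB (isMulComm_sup_zpowers inferInstance (by
    rw [cent_zpowers]; exact mc1.2 (cm v hv.1 vp)))
  have := mem_zpowers_of_cyc (A := ↥(zpowers w ⊔ zpowers v)) hp.out (x := ⟨v, mem_sup_right (mem_zpowers v)⟩)
    (y := ⟨w, mem_sup_left (mem_zpowers w)⟩) (Subtype.ext vp) (Subtype.ext (he.2 w hw))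
    (fun e => w1 (congrArg Subtype.val e))
  obtain ⟨i, hi⟩ := this
  exact ⟨i, congrArg Subtype.val hi⟩

end C3

namespace L2

variable {s : G} {F : Type*} [Field F] [CharP F 2] {cz l : G → F}

theorem V_eq' (h : L2 a t Q s cz l) : D ⊓ C1[t] = D ⊓ C1[s] :=
  h.V_eq h.sI (h.I_Q h.sI) (by rw [inv_of_sq h.sI.2.2]; exact h.str)

theorem modW [Finite F] (h : L2 a t Q s cz l) {p : ℕ} (hp : p.Prime) {u v : G} (hu : u ∈ D ⊓ C1[t])
    (hv : v ∈ D ⊓ C1[t]) (up : u ^ p = 1) (vp : v ^ p = 1) (hW : u ∉ C[Q0 G a]) :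
    ∃ y ∈ zpowers u, v * y⁻¹ ∈ C[Q0 G a] := by
  rw [h.V_eq'] at hu hv
  obtain ⟨α, h1, -⟩ := h.exists_aut h.r2 h.co h.sI h.cs
  have ker : ∀ y : ↥(D ⊓ C1[s]), α y = 1 → (y : G) ∈ C[Q0 G a] := fun y e => mem_cent_iff.2 fun z hz => by
    have := h1 y z hz
    rw [e] at this
    exact (mul_inv_eq_iff_eq_mul.1 (h.inj (conj_mem_of_norm (RO.n_Q0 y.2.1.1) hz) hz this)).symm
  haveI := cyc_aut (F := F)
  haveI := fin_aut (F := F)
  obtain ⟨i, hi⟩ := mem_zpowers_of_cyc hp (x := α ⟨v, hv⟩) (y := α ⟨u, hu⟩)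
    (by rw [← map_pow, show (⟨v, hv⟩ : ↥(D ⊓ C1[s])) ^ p = 1 from Subtype.ext vp, map_one])
    (by rw [← map_pow, show (⟨u, hu⟩ : ↥(D ⊓ C1[s])) ^ p = 1 from Subtype.ext up, map_one])
    (fun e => hW (ker _ e))
  refine ⟨u ^ i, zpow_mem_zpowers u i, ker (⟨v, hv⟩ * (⟨u, hu⟩ ^ i)⁻¹) ?_⟩
  rw [map_mul, map_inv, map_zpow, ← hi]
  exact mul_inv_cancel _

theorem exists_p0 (h : L2 a t Q s cz l) (h3 : C3 a t Q) {w : G} (hw : w ∈ D ⊓ C[Q0 G a])
    (hc : Q ⊓ C1[w] = Q0 G a) {U : Subgroup G} (hU : U ≤ D ⊓ C1[t]) (wU : w ∈ C[U])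
    (cd : o[Q ⊓ C[U]] = o[Q0 G a ⊓ C[U]] ^ 3) :
    ∃ x ∈ Q ⊓ C[U], x ∉ Q0 G a ∧ ∃ z ∈ Q0 G a ⊓ C[U], t • x • t • a = w • z • x • t • a := by
  set X := Q ⊓ C[U] with hX
  set X0 := Q0 G a ⊓ C[U] with hX0
  set Ku := KK a t ⊓ C[U] with hKu
  have le0 : X0 ≤ X := inf_le_inf_right _ h.Q0_le
  have cK : o[Ku] + 1 = o[X0] := h.card_Ku h.r2 hU
  have cK0 := card_pos' Ku
  have tU : t ∈ C[U] := mem_cent_iff.2 fun u hu => mc1.1 (hU hu).2
  have fta : Fx (U : Set G) (t • a) := fun u hu => (hU hu).1.2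
  have fa : Fx (U : Set G) a := fun u hu => (hU hu).1.1
  obtain ⟨x, hx, hx0⟩ : ∃ x ∈ X, x ∉ X0 := by
    by_contra! e
    have := card_le_of_le (show X ≤ X0 from e)
    rw [cd] at this
    have h2 : o[X0] ^ 1 < o[X0] ^ 3 := Nat.pow_lt_pow_right (by omega) (by norm_num)
    rw [pow_one] at h2
    omega
  have hx0' : x ∉ Q0 G a := fun e => hx0 ⟨e, hx.2⟩
  have nf : ∀ y ∈ Q, (w • y • t • a ≠ y • t • a ↔ y ∉ Q0 G a) := fun y hy => by
    rw [Ne, h.fix_iff hw.1 hy, ← hc, mem_inf, and_iff_right hy]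
  set p := x • t • a with hp
  have wp : w • p ≠ p := (nf x hx.1).2 hx0'
  have fp : Fx (U : Set G) p := fta.smul hx.2
  let S : Set Ω := (fun y => y • t • a) '' ((X : Set G) \ X0)
  have mS : ∀ g ∈ C[U], g * w = w * g → g • p ∈ S := fun g hg e => by
    have h1 : w • g • p ≠ g • p := fun e' => wp (by
      rw [← mul_smul, ← e, mul_smul] at e'; exact (smul_left_cancel_iff g).1 e')
    obtain ⟨y, hy, hy', e'⟩ := h.cq fa h.ta (fun e => h1 (by rw [e]; exact hw.1.1)) fta (fp.smul hg)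
    exact ⟨y, ⟨⟨hy, hy'⟩, fun e => (nf y hy).1 (e' ▸ h1) e.1⟩, e'⟩
  let γ : (X0 × Ku) × Option X0 → G := fun o => match o with
    | ((z, k), none) => z.1 * k.1
    | ((z, k), some z') => z.1 * k.1 * t * z'.1
  have wz : ∀ z : X0, z.1 * w = w * z.1 := fun z => (RO.W_z hw z.2.1).symm
  have wk : ∀ k : Ku, k.1 * w = w * k.1 := fun k => (h.W_k hw k.2.1).symm
  have γS : ∀ o, γ o • p ∈ S := by
    rintro ⟨⟨z, k⟩, _ | z'⟩
    · exact mS _ ((C[U]).mul_mem z.2.2 k.2.2) (Commute.mul_left (wz z) (wk k))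
    · exact mS _ ((C[U]).mul_mem ((C[U]).mul_mem ((C[U]).mul_mem z.2.2 k.2.2) tU) z'.2.2)
        (Commute.mul_left (Commute.mul_left (Commute.mul_left (wz z) (wk k)) (h.W_tt hw).symm) (wz z'))
  have γ1 : ∀ o g, InL a t cz l g → InL a t cz l (γ o * g) := by
    rintro ⟨⟨z, k⟩, _ | z'⟩ g r
    · simp only [γ, mul_assoc]; exact h.in_z z.2.1 (h.in_k k.2.1 r)
    · simp only [γ, mul_assoc]; exact h.in_z z.2.1 (h.in_k k.2.1 (h.in_t (h.in_z z'.2.1 r)))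
  have γ2 : ∀ o g, InL a t cz l g → InL a t cz l ((γ o)⁻¹ * g) := by
    rintro ⟨⟨z, k⟩, _ | z'⟩ g r
    · simp only [γ, mul_inv_rev, mul_assoc]; exact h.in_k (inv_mem k.2.1) (h.in_z (inv_mem z.2.1) r)
    · simp only [γ, mul_inv_rev, mul_assoc, h.tinv]
      exact h.in_z (inv_mem z'.2.1) (h.in_t (h.in_k (inv_mem k.2.1) (h.in_z (inv_mem z.2.1) r)))
  have zH : ∀ z : X0, z.1 ∈ Q := fun z => h.Q0_le z.2.1
  have kD : ∀ k : Ku, k.1 ∈ D := fun k => RO.KK_le k.2.1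
  have γi : Injective γ := by
    rintro ⟨⟨z, k⟩, _ | z'⟩ ⟨⟨y, m⟩, _ | y'⟩ e
    · obtain ⟨e1, e2⟩ := h.dec_unique (zH z) (kD k) (zH y) (kD m) e
      rw [Subtype.ext e1, Subtype.ext e2]
    · exact absurd ((show z.1 * k.1 = y.1 * m.1 * t * y'.1 from e) ▸ mul_mem (h.le (zH z)) (kD k).1)
        (h.bru_nmem (mul_mem (h.le (zH y)) (kD m).1) (h.le (zH y')))
    · exact absurd ((show y.1 * m.1 = z.1 * k.1 * t * z'.1 from e.symm) ▸ mul_mem (h.le (zH y)) (kD m).1)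
        (h.bru_nmem (mul_mem (h.le (zH z)) (kD k).1) (h.le (zH z')))
    · obtain ⟨e1, e2, e3⟩ := h.bru3_unique (zH z) (kD k) (zH z') (zH y) (kD m) (zH y') e
      rw [Subtype.ext e1, Subtype.ext e2, Subtype.ext e3]
  have fi : Injective fun o => γ o • p := fun o o' e => γi (by
    obtain ⟨_, _, _, _, r⟩ := γ2 o _ (γ1 o' _ h.in_one)
    have := h.semi r hw wp (by rw [mul_one, mul_smul, inv_smul_eq_iff]; exact e.symm)
    rw [mul_one, inv_mul_eq_one] at this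
    exact this)
  haveI := h.finΩ
  have hS : Set.range (fun o => γ o • p) = S := Set.eq_of_subset_of_ncard_le (by rintro _ ⟨o, rfl⟩; exact γS o) (by
    rw [Set.ncard_range_of_injective fi, Nat.card_prod, Nat.card_prod, Finite.card_option]
    refine (Set.ncard_image_le (Set.toFinite _)).trans ?_
    rw [Set.ncard_diff (show (X0 : Set G) ⊆ X from le0)]
    change o[X] - o[X0] ≤ _
    rw [cd, ← cK]
    apply Nat.sub_le_of_le_add
    apply le_of_eq; ring)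
  obtain ⟨⟨⟨z, k⟩, _ | z'⟩, e⟩ : w • p ∈ Set.range (fun o => γ o • p) := hS ▸ mS w wU rfl
  · exfalso
    change (z.1 * k.1) • p = w • p at e
    rw [hp, mul_smul, ← RO.smul_ta (kD k), ← RO.smul_ta hw.1, ← mul_smul] at e
    have e1 := h.q_inj (mul_mem (zH z) (h.conj_Q (kD k).1 hx.1)) (h.conj_Q hw.1.1 hx.1) h.ta e
    have e2 : (k.1 * x * k.1⁻¹)⁻¹ * (w * x * w⁻¹) ∈ Q0 G a := by
      rw [← e1, ← mul_assoc]
      exact conj_mem_of_norm' (RO.n_Q0 (h.le (h.conj_Q (kD k).1 hx.1))) z.2.1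
    have e3 := h3.sq_arg hw k.2.1 hx.1 hx0' e2
    rw [e3, one_mul, inv_one, mul_one] at e2
    obtain ⟨y, hy, hy'⟩ := h.fixed_lift h.r2 hw.1 e2
    have : x * y ∈ Q0 G a := hc ▸ mem_inf.2 ⟨mul_mem hx.1 (h.Q0_le hy), hy'⟩
    exact hx0' ((mul_mem_cancel_right hy).1 this)
  · change (z.1 * k.1 * t * z'.1) • p = w • p at e
    obtain ⟨m, hm, e1, hm'⟩ := inverted_sqrt h.od (inverted_inv ((h.mem_KK h.r2).1 k.2.1))
    have mK : m ∈ Ku := (zpowers_le.2 (inv_mem k.2)) hm'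
    have nX : m ∈ N[C[U]] := le_normalizer mK.2
    refine ⟨m * (z'.1 * x) * m⁻¹, ⟨h.conj_Q hm.1.1 (mul_mem (zH z') hx.1),
      conj_mem_of_norm nX ((C[U]).mul_mem z'.2.2 hx.2)⟩, fun e' => hx0' ?_, m * (z.1⁻¹ * z'.1⁻¹) * m⁻¹,
      ⟨h.KK_conj mK.1 (mul_mem (inv_mem z.2.1) (inv_mem z'.2.1)),
        conj_mem_of_norm nX ((C[U]).mul_mem ((C[U]).inv_mem z.2.2) ((C[U]).inv_mem z'.2.2))⟩, ?_⟩
    · have := conj_mem_of_norm' (RO.n_Q0 hm.1.1) e'
      rw [show m⁻¹ * (m * (z'.1 * x) * m⁻¹) * m = z'.1 * x by group] at this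
      exact (mul_mem_cancel_left (mem_inf.1 z'.2).1).1 this
    · rw [RO.smul_ta hm.1, mul_smul z'.1, ← hp]
      clear_value p
      have e2 : (t * z'.1) • p = (m * m * z.1⁻¹ * w) • p := by
        rw [mul_smul _ w, ← e, ← mul_smul, e1]; congr 1; group
      simp only [← mul_smul]
      rw [← mul_assoc, h.tk' hm, mul_assoc, mul_smul, e2, ← mul_smul]
      congr 1
      have := (Commute.mul_left (wk ⟨m, mK⟩) (Commute.inv_left (wz z))).eq
      calc m⁻¹ * (m * m * z.1⁻¹ * w) = m * z.1⁻¹ * w := by group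
        _ = w * (m * z.1⁻¹) := this
        _ = _ := by group

theorem x0_aux (h : L2 a t Q s cz l) (h3 : C3 a t Q) {w : G} (hw : w ∈ D ⊓ C[Q0 G a])
    (hc : Q ⊓ C1[w] = Q0 G a) {p : ℕ} (wp : w ^ p = 1) {U : Subgroup G} (hU : U ≤ D ⊓ C1[t]) (wU : w ∈ C[U])
    (hV : ∀ v ∈ D ⊓ C1[t], v ∈ C[U] → v ^ p = 1 → ∃ i : ℕ, ∃ y ∈ U, v = w ^ i * y)
    {x z : G} (hx : x ∈ Q) (xU : x ∈ C[U]) (hx0 : x ∉ Q0 G a) (hz : z ∈ Q0 G a) (zU : z ∈ C[U])
    (e : t • x • t • a = w • z • x • t • a) : z = x * x := by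
  have x1 : x ≠ 1 := fun e => hx0 (e ▸ one_mem _)
  obtain ⟨g, hg, d, hd, f, hf, eb⟩ := h.bru3 (h.tqt_nmem hx x1)
  have zQ := h.Q0_le hz
  have zz := h3.sze.sq hz
  have wz := RO.W_z hw hz
  have wt := h.W_tt hw
  have nf : ∀ y ∈ Q, (w • y • t • a ≠ y • t • a ↔ y ∉ Q0 G a) := fun y hy => by
    rw [Ne, h.fix_iff hw.1 hy, ← hc, mem_inf, and_iff_right hy]
  have eg : g = w * (z * x) * w⁻¹ := h.q_inj hg (h.conj_Q hw.1.1 (mul_mem zQ hx)) h.ta (by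
    rw [RO.smul_ta hw.1, mul_smul, ← e, ← mul_smul t, ← mul_smul (t * x) t, eb, mul_smul, mul_smul, mul_smul,
      show f • a = a from h.le hf, show d • t • a = t • a from hd.2])
  have dU : d ∈ C[U] := mem_cent_iff.2 fun u hu => by
    have ut : u * t = t * u := mc1.1 (hU hu).2
    have uD := (hU hu).1
    have := h.bru3_unique (h.conj_Q uD.1 hg) (conj_mem_of_norm (le_normalizer uD) hd) (h.conj_Q uD.1 hf)
      hg hd hf (by
        calc u * g * u⁻¹ * (u * d * u⁻¹) * t * (u * f * u⁻¹) = u * (g * d) * u⁻¹ * (t * u) * f * u⁻¹ := by group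
          _ = u * (g * d * t * f) * u⁻¹ := by rw [← ut]; group
          _ = (u * t) * x * t * u⁻¹ := by rw [← eb]; group
          _ = t * (u * x) * t * u⁻¹ := by rw [ut]; group
          _ = t * x * (u * t) * u⁻¹ := by rw [mem_cent_iff.1 xU u hu]; group
          _ = _ := by rw [ut, ← eb]; group)
    exact mul_inv_eq_iff_eq_mul.1 this.2.1
  have hz1 := h3.sq hx
  have zz1 := h3.sze.sq hz1
  have xi : x⁻¹ = x * x * x := by rw [inv_eq_iff_mul_eq_one, ← zz1]; group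
  have fi : f⁻¹ • t • a = t • (x * x) • x • t • a := by
    have := congrArg (· • a) (h.f_inv eb)
    simp only [mul_smul] at this
    rw [show g⁻¹ • a = a from h.le (inv_mem hg), h.tta, show d⁻¹ • a = a from (inv_mem hd : d⁻¹ ∈ D).1,
      xi] at this
    rw [← this]; simp only [mul_smul]
  have ff : t • f • t • a = (d⁻¹ * w) • (z * (x * x) * x) • t • a := by
    have := congrArg (· • a) (h.f_f eb)
    simp only [mul_smul, smul_inv_smul] at this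
    rw [this, show x • a = a from h.le hx, eg, mul_smul, ← RO.smul_ta hw.1, mul_assoc z, ← xi]
    congr 3
    rw [mul_inv_rev, mul_inv_rev, mul_inv_rev, inv_inv, inv_of_sq zz, h3.sze.comm hz (inv_mem hx)]
    group
  set p0 := x • t • a with hp0
  have wp0 : w • p0 ≠ p0 := (nf x hx).2 hx0
  have cM : Commute w (z * t) := Commute.mul_right wz wt
  have Mp : ∀ n : ℕ, (z * t) ^ n • p0 = w ^ n • p0 := fun n => by
    induction n with
    | zero => simp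
    | succ n ih =>
      have : (z * t) • p0 = w • p0 := by
        rw [mul_smul, e, ← mul_smul, ← wz, ← mul_smul, mul_assoc, zz, mul_one]
      rw [pow_succ, mul_smul, this, ← mul_smul, ← (cM.pow_right n).eq, mul_smul, ih, pow_succ', mul_smul]
  have M1 : (z * t) ^ p = 1 := by
    obtain ⟨_, _, -, r⟩ := h.pow_rel hz p
    simpa using h.semi (r _ _ _ _ _ h.rel_one) hw wp0 (by rw [mul_one, Mp, wp, one_smul])
  have hθ : w⁻¹ * d ∈ D := mul_mem (inv_mem hw.1) hd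
  have θp : (d⁻¹ * w) ^ p = 1 := by
    have e1 : t * (w⁻¹ * d) * t * f = (x * t)⁻¹ * (w⁻¹ * (z * t)) * (x * t) := by
      calc t * (w⁻¹ * d) * t * f = t * x⁻¹ * w⁻¹ * (w * (z * z)) * x * w⁻¹ * d * t * f := by rw [zz]; group
        _ = t * x⁻¹ * w⁻¹ * z * (g * d * t * f) := by rw [← mul_assoc w z z, wz, eg]; group
        _ = _ := by rw [← eb, mul_inv_rev, h.tinv]; group
    have e2 := h.pow_D (h.tD hθ) hf (n := p) (by
      rw [e1, show (x * t)⁻¹ * (w⁻¹ * (z * t)) * (x * t) = (x * t)⁻¹ * (w⁻¹ * (z * t)) * (x * t)⁻¹⁻¹ by group,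
        conj_pow, cM.inv_left.mul_pow, M1, inv_pow, wp]; group)
    rw [show t * (w⁻¹ * d) * t = t * (w⁻¹ * d) * t⁻¹ by rw [h.tinv], conj_pow, conj_eq_one_iff] at e2
    rw [show d⁻¹ * w = (w⁻¹ * d)⁻¹ by group, inv_pow, e2, inv_one]
  obtain ⟨k, hk, v, hv, ekv⟩ := h.dec_D (mul_mem (inv_mem hd) hw.1)
  have vU : v ∈ C[U] := mem_cent_iff.2 fun u hu => by
    have := h.KV_unique h.r2 (inverted_conj hk (hU hu)) (conj_mem_of_norm (le_normalizer (hU hu)) hv) hk hv (by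
      rw [conj_mul, ← ekv, mem_cent_iff.1 (mul_mem (inv_mem dU) wU) u hu]; group)
    exact mul_inv_eq_iff_eq_mul.1 this.2
  obtain ⟨i, y, hy, ev⟩ := hV v hv vU (h.pow_V h.r2 hk hv (ekv ▸ θp))
  obtain ⟨j', hj⟩ := exists_sqrt (odd_of_mem h.od (pow_mem hw.1 i))
  rw [← pow_mul] at hj
  set j := i * j'
  have hk' := (h.mem_KK h.r2).2 hk
  have f0 : f ∉ Q0 G a := fun e' => by
    refine (nf _ (inv_mem hx)).2 (fun e => hx0 (inv_mem_iff.1 e)) ?_
    have := not_not.1 (mt (nf _ (inv_mem hf)).1 (not_not.2 (inv_mem e')))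
    rw [fi, ← mul_smul w, wt, mul_smul, smul_left_cancel_iff, hp0, ← mul_smul (x * x), ← xi] at this
    exact this
  have hz2 := h3.sq hf
  have zz2 := h3.sze.sq hz2
  have eb2 : t • (f * f) • t • (x * x) • p0 = k • z • (x * x) • (z * t) ^ j • (z * t) ^ j • p0 := by
    have c1 : z * (x * x) * x ∈ C[U] := mul_mem (mul_mem zU (mul_mem xU xU)) xU
    rw [← fi, ← mul_smul (f * f), mul_inv_cancel_right, ff, ekv, ev, mul_smul, mul_smul, ← mul_smul y,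
      mem_cent_iff.1 c1 y hy, mul_smul, show y • t • a = t • a from (hU hy).1.2, Mp, ← mul_smul ((z * t) ^ j),
      ← (cM.pow_pow j j).eq, mul_smul (w ^ j), Mp, ← mul_smul (w ^ j), hj, mul_smul, ← hp0]
    clear_value p0
    simp only [← mul_smul]
    congr 1
    rw [(Commute.pow_left (show Commute w (z * (x * x)) from RO.W_z hw (mul_mem hz hz1)) i).eq]; group
  obtain ⟨A, B, eN, r⟩ := h.pow_rel hz j
  obtain ⟨m, hm, em⟩ := h.KK_sqrt h.r2 hk'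
  have r1 := h.rel_z (h.rel_t (h.rel_z (h.rel_t (h.rel_k (h.rel_z (h.rel_z (r _ _ _ _ _ (r _ _ _ _ _ h.rel_one))
    hz1) hz) hk' (μ := l m) (by rw [← em, h.co.lmul hm hm, pow_two]))) hz2)) hz1
  rw [h.semi r1 hw wp0 (by
    simp only [mul_smul _ (_ * _), mul_one, mul_smul ((z * t) ^ j)]
    rw [← eb2, smul_smul t t, h.tt, one_smul, smul_smul (f * f), zz2, one_smul, smul_smul t t, h.tt, one_smul,
      smul_smul, zz1, one_smul])] at r1
  obtain ⟨q1, q2, q3, q4⟩ := h.rel_eq_one r1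
  have m0 := h.co.lne hm
  have c20 : cz (f * f) ≠ 0 := fun e => h3.sq_ne hf f0 (h.inj hz2 (one_mem _) (by rw [e, h.co.one]))
  have key : A = B * cz (x * x) ∧ cz (f * f) = B ^ 2 * cz z := by grind
  have B0 : B ≠ 0 := fun e => c20 (by rw [key.2, e]; simp)
  obtain ⟨n, hn, en⟩ := h.co.lsurj _ (pow_ne_zero 2 B0)
  obtain ⟨-, ⟨u0, -⟩ | ⟨-, z3, hz3, k3, hk3, z4, hz4, -, e4, e5, e6⟩⟩ :=
    h.rel_k (r _ _ _ _ _ h.rel_one) hn en
  · exact absurd u0 (by simp [B0])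
  obtain rfl : k3 = 1 := h.co.linj k3 hk3 (by simpa [B0] using e4)
  obtain rfl : z4 = x * x := h.inj hz4 hz1 (by rw [key.1] at e5; simpa [B0] using e5)
  have hd' : n * w ^ j ∈ D := mul_mem (RO.KK_le hn) (pow_mem hw.1 j)
  have e7 : z3 * f⁻¹ = n * w ^ j * x * (n * w ^ j)⁻¹ := h.q_inj (mul_mem (h.Q0_le hz3) (inv_mem hf))
    (h.conj_Q hd'.1 hx) h.ta (by
      rw [RO.smul_ta hd', mul_smul, fi, ← hp0, mul_smul n, ← Mp, ← mul_smul n, ← mul_one (_ ^ j), e6]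
      simp only [mul_smul, one_smul])
  have e8 : f * f = n * (x * x) * n⁻¹ := by
    have := h3.sq_eq (y := z3 * f⁻¹) (inv_mem hf) (by
      rw [inv_inv, ← mul_assoc]; exact conj_mem_of_norm (RO.n_Q0 (h.le hf)) hz3)
    rw [e7, conj_mul, ← mul_inv_rev, inv_of_sq zz2, mul_assoc n,
      (Commute.pow_left (show Commute w (x * x) from RO.W_z hw hz1) j).eq] at this
    rw [← this]; group
  refine h.inj hz hz1 (mul_left_cancel₀ (pow_ne_zero 2 B0) ?_)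
  rw [← key.2, e8, h.co.conj _ hn _ hz1, en]

end L2

theorem C3.exists_x0 [FaithfulSMul G Ω] (h : C3 a t Q) (hP : commutator G = ⊤) (hW : D ⊓ C[Q0 G a] ≠ ⊥) :
    ∃ w ∈ D ⊓ C[Q0 G a], w ≠ 1 ∧ ∃ x ∈ Q, x ∉ Q0 G a ∧ t • x • t • a = w • (x * x) • x • t • a := by
  obtain ⟨p, hp, w, hw, w1, wp, c1, c2⟩ := h.exists_zeta hW
  have hc := h.cent_W hw w1
  obtain ⟨s, hs, es⟩ := h.str hw hc
  obtain ⟨F, _, _, _, cz, l, h2⟩ := h.exists_L2 h.r2 hs es
  have zp : ∀ v ∈ zpowers w, ∃ i : ℕ, v = w ^ i := fun v hv => by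
    obtain ⟨i, hi⟩ := mem_powers_iff_mem_zpowers.2 hv; exact ⟨i, hi.symm⟩
  obtain ⟨U, hU, wU, cd, hV⟩ : ∃ U ≤ D ⊓ C1[t], w ∈ C[U] ∧ o[Q ⊓ C[U]] = o[Q0 G a ⊓ C[U]] ^ 3 ∧
      ∀ v ∈ D ⊓ C1[t], v ∈ C[U] → v ^ p = 1 → ∃ i : ℕ, ∃ y ∈ U, v = w ^ i * y := by
    by_cases hu : ∃ u ∈ D ⊓ C1[t], u ^ p = 1 ∧ u ∉ C[Q0 G a]
    · obtain ⟨u, hu, up, uW⟩ := hu
      have uK : u ∉ C[KK a t] := fun e => uW (h.mem_W hu e).2
      have hd := h.prime_dvd h.r2 hP hp hu up uK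
      refine ⟨zpowers u, zpowers_le.2 hu, by rw [cent_zpowers]; exact mc1.2 (c1 u hu.1 up).symm, ?_,
        fun v hv vU vp => ?_⟩
      · have e1 := h.cent_pow h.r2 hp hu up uK hd le_rfl (inf_le_left.trans h.nQ) h.pg
        have e2 := h.cent_pow h.r2 hp hu up uK hd h.Q0_le (inf_le_left.trans RO.n_Q0) (h.pg.to_le h.Q0_le)
        rw [h.cd, e2, ← pow_mul, mul_comm, pow_mul] at e1
        exact (Nat.pow_left_injective hp.ne_zero e1).symm
      · obtain ⟨y, hy, e⟩ := h2.modW hp hu hv up vp uW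
        have yD : y ∈ D := (zpowers_le.2 (mem_inf.1 hu).1) hy
        obtain ⟨i, hi⟩ := zp _ (c2 _ (mem_inf.2 ⟨mul_mem (mem_inf.1 hv).1 (inv_mem yD), e⟩) (by
          rw [(Commute.inv_right (mem_cent_iff.1 vU y hy).symm).mul_pow, vp, inv_pow,
            (elem_zpowers up).2 y hy]; simp))
        exact ⟨i, y, hy, by rw [← hi]; group⟩
    · push Not at hu
      have cb : C[(⊥ : Subgroup G)] = ⊤ := eq_top_iff.2 fun g _ => mem_cent_iff.2 fun y hy => by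
        rw [mem_bot.1 hy, one_mul, mul_one]
      refine ⟨⊥, bot_le, cb ▸ mem_top _, by rw [cb, inf_top_eq, inf_top_eq, h.cd], fun v hv _ vp => ?_⟩
      obtain ⟨i, hi⟩ := zp _ (c2 v ⟨hv.1, hu v hv vp⟩ vp)
      exact ⟨i, 1, one_mem _, by rw [mul_one, hi]⟩
  obtain ⟨x, hx, hx0, z, hz, e⟩ := h2.exists_p0 h hw hc hU wU cd
  exact ⟨w, hw, w1, x, hx.1, hx0, h2.x0_aux h hw hc wp hU wU hV hx.1 hx.2 hx0 hz.1 hz.2 e ▸ e⟩

end CfsgRO
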