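import Cfsg.Agent.H3.RO5

/-! Split rank one set-up with `|Q| = q ^ 3`: unitary coordinates. -/

set_option autoImplicit false
open Subgroup Cfsg CfsgH2 CfsgH1 CfsgH3 Function MulAction
open scoped commutatorElement IsMulCommutative

namespace CfsgRO

section alg
variable {E : Type*} [Field E] [CharP E 2] {σ : E →+* E}

theorem conj_dec (σσ : ∀ u, σ (σ u) = u) {w : E} (hw : σ w ≠ w) (u : E) :
    ∃ a b, σ a = a ∧ σ b = b ∧ u = a + b * w := by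
  have h0 : w + σ w ≠ 0 := fun e => hw (CharTwo.add_eq_zero.1 e).symm
  have hb : σ ((u + σ u) / (w + σ w)) = (u + σ u) / (w + σ w) := by
    rw [map_div₀, map_add, map_add, σσ, σσ, add_comm (σ u), add_comm (σ w)]
  refine ⟨u + (u + σ u) / (w + σ w) * w, _, ?_, hb, by grind⟩
  rw [map_add, map_mul, hb]; grind

theorem coc_zero (σσ : ∀ u, σ (σ u) = u) {w : E} (h1 : σ w * w = 1) (hw : σ w ≠ w)
    (sq : ∀ u, σ u = u → ∃ v, σ v = v ∧ v * v = u) (Γ : E → E → E)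
    (coc : ∀ u v r, Γ u v + Γ (u + v) r = Γ v r + Γ u (v + r))
    (hk : ∀ κ, σ κ = κ → ∀ u v, Γ (κ * u) (κ * v) = κ ^ 2 * Γ u v)
    (hΓ : ∀ u v, Γ (w * u) (w * v) = Γ u v) (h11 : Γ 1 1 = 0)
    (h0 : ∀ e, σ e = e → e ≠ w + σ w → Γ 1 (w / (e + σ w)) = 0) (u v : E) : Γ u v = 0 := by
  have c2 : ∀ x : E, x + x = 0 := CharTwo.add_self_eq_zero
  have g00 : Γ 0 0 = 0 := by simpa using hk 0 (map_zero σ) 0 0
  have g0 : ∀ u, Γ 0 u = 0 := fun u => by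
    have := coc 0 0 u
    rw [add_zero, zero_add, g00] at this; grind
  have w1 : 1 + w ≠ 0 := fun e => hw (by rw [← CharTwo.add_eq_zero.1 e, map_one])
  let B : E → E → E := fun u v => Γ u v + Γ v u
  have Bs : ∀ u v, B u v = B v u := fun u v => add_comm _ _
  have Ba : ∀ u v r, B (u + v) r = B u r + B v r := fun u v r => by
    have e1 := coc u v r
    have e2 := coc u r v
    have e3 := coc r u v
    rw [add_comm r v] at e2
    rw [add_comm r u] at e3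
    simp only [B]; grind
  have Ba' : ∀ u v r, B r (u + v) = B r u + B r v := fun u v r => by rw [Bs, Ba, Bs u, Bs v]
  have Bk : ∀ κ, σ κ = κ → ∀ u v, B (κ * u) (κ * v) = κ ^ 2 * B u v := fun κ h u v => by
    simp only [B]; rw [hk κ h, hk κ h, mul_add]
  have Bm : ∀ κ, σ κ = κ → ∀ u v, B (κ * u) v = B u (κ * v) := fun κ h u v => by
    have := Bk (κ + 1) (by rw [map_add, h, map_one]) u v
    rw [add_mul, add_mul, one_mul, one_mul, Ba, Ba', Ba', Bk κ h] at this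
    grind
  have Bl : ∀ κ, σ κ = κ → ∀ u v, B (κ * u) v = κ * B u v := fun κ h u v => by
    obtain ⟨μ, hμ, rfl⟩ := sq κ h
    rw [mul_assoc, Bm μ hμ, Bk μ hμ, pow_two]
  have Bl' : ∀ κ, σ κ = κ → ∀ u v, B v (κ * u) = κ * B v u := fun κ h u v => by rw [Bs, Bl κ h, Bs]
  have Bd : ∀ u, B u u = 0 := fun u => c2 _
  set u0 := (1 + w)⁻¹ with hu0
  have e0 : u0 + w * u0 = 1 := by rw [hu0]; field_simp
  have B1 : B u0 (w * u0) = 0 := by
    have e1 := coc u0 (w * u0) (u0 + w * u0)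
    have e2 := coc (w * u0) (w * u0) u0
    rw [show w * u0 + (u0 + w * u0) = u0 by grind, e0, h11] at e1
    rw [c2, g0, add_comm (w * u0) u0, e0, hΓ] at e2
    simp only [B]; grind
  have B0 : ∀ u v, Γ u v = Γ v u := fun u v => by
    obtain ⟨a, b, ha, hb, e1⟩ := conj_dec σσ hw (u * (1 + w))
    obtain ⟨a', b', ha', hb', e2⟩ := conj_dec σσ hw (v * (1 + w))
    have f1 : u = a * u0 + b * (w * u0) := by rw [hu0]; field_simp; grind
    have f2 : v = a' * u0 + b' * (w * u0) := by rw [hu0]; field_simp; grind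
    have : B u v = 0 := by
      rw [f1, f2, Ba, Ba', Ba', Bl _ ha, Bl _ ha, Bl _ hb, Bl _ hb, Bl' _ ha', Bl' _ hb', Bl' _ ha', Bl' _ hb',
        Bd, Bd, Bs (w * u0), B1]
      simp
    exact CharTwo.add_eq_zero.1 this
  let β : E → E := fun x => Γ (x * u0) (w * (x * u0))
  have hβ : ∀ x y, Γ x y = β x + β y + β (x + y) := fun x y => by
    have e1 := coc (x * u0) (w * (x * u0)) (y * u0 + w * (y * u0))
    have e2 := coc (x * u0) (y * u0) (w * (x * u0) + w * (y * u0))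
    have e3 := coc (w * (x * u0)) (y * u0) (w * (y * u0))
    have e4 := coc (y * u0) (w * (x * u0)) (w * (y * u0))
    have f : ∀ x, x * u0 + w * (x * u0) = x := fun x => by linear_combination x * e0
    rw [f, f] at e1
    rw [show y * u0 + (w * (x * u0) + w * (y * u0)) = w * (x * u0) + y by linear_combination f y,
      ← add_mul, show w * (x * u0) + w * (y * u0) = w * ((x + y) * u0) by ring] at e2
    rw [f, B0 _ (y * u0)] at e3
    rw [add_comm (y * u0), hΓ, show w * (x * u0) + w * (y * u0) = w * ((x + y) * u0) by ring] at e4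
    simp only [β]; grind
  have βk : ∀ κ, σ κ = κ → ∀ x, β (κ * x) = κ ^ 2 * β x := fun κ h x => by
    simp only [β]; rw [← hk κ h]; congr 1 <;> ring
  have βw : ∀ x, β (w * x) = β x := fun x => by
    simp only [β]; rw [← hΓ (x * u0)]; congr 1 <;> ring
  have ne : ∀ e, σ e = e → e + σ w ≠ 0 := fun e he h => hw (by
    have := CharTwo.add_eq_zero.1 h
    rw [← σσ w, ← this, he, he])
  have fa : σ (w + σ w) = w + σ w := by rw [map_add, σσ, add_comm]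
  have φ1 : ∀ e, σ e = e → e ≠ w + σ w → β 1 + (1 + (e + (w + σ w)) ^ 2) * β (e + σ w)⁻¹ = 0 := fun e he hne => by
    have := h0 e he hne
    have n := ne e he
    rw [hβ, div_eq_mul_inv, βw, show 1 + w * (e + σ w)⁻¹ = (e + (w + σ w)) * (e + σ w)⁻¹ by field_simp; grind,
      βk _ (by rw [map_add, he, fa])] at this
    linear_combination this
  have β1 : β 1 = 0 := by
    have := φ1 (w + σ w + 1) (by rw [map_add, fa, map_one]) (by simp)
    grind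
  have φ2 : ∀ e, σ e = e → e ≠ w + σ w + 1 → β (e + σ w)⁻¹ = 0 := fun e he hne => by
    by_cases h : e = w + σ w
    · rw [h, ← βw, show w * (w + σ w + σ w)⁻¹ = 1 by grind, β1]
    · have := φ1 e he h
      rw [β1, zero_add, mul_eq_zero] at this
      exact this.resolve_left (by grind)
  have φ3 : ∀ e, σ e = e → β (e + σ w)⁻¹ = 0 := fun e he => by
    by_cases h : e = w + σ w + 1
    · have n := ne 1 (map_one σ)
      rw [h, ← βw, show w * (w + σ w + 1 + σ w)⁻¹ = (1 + σ w)⁻¹ by grind]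
      exact φ2 1 (map_one σ) (by grind)
    · exact φ2 e he h
  have β0 : ∀ x, β x = 0 := fun x => by
    obtain ⟨a, b, ha, hb, e⟩ := conj_dec σσ (w := σ w) (by rw [σσ]; exact hw.symm) x⁻¹
    by_cases b0 : b = 0
    · rw [show x = a⁻¹ * 1 by rw [← inv_inv x, e, b0]; simp, βk _ (by rw [map_inv₀, ha]), β1, mul_zero]
    · rw [show x = b⁻¹ * (a / b + σ w)⁻¹ by rw [← inv_inv x, e, ← mul_inv]; congr 1; field_simp,
        βk _ (by rw [map_inv₀, hb]), φ3 _ (by rw [map_div₀, ha, hb]), mul_zero]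
  rw [hβ, β0, β0, β0]; simp

end alg

/-- unitary coordinates -/
structure U3 {G Ω : Type*} [Group G] [MulAction G Ω] (a : Ω) (t : G) (Q : Subgroup G) (s w x : G)
    {E : Type*} [Field E] (σ : E →+* E) (c l e : G → E) (ξ η : Ω → E) : Prop extends C3 a t Q where
  sI : s ∈ involutionsIn (SetLike.coe (stabilizer G a))
  str : t * s * t = s * t * s
  hw : w ∈ DD a t ⊓ C[Q0 G a]
  hW : ∀ v ∈ DD a t ⊓ C[Q0 G a], v ≠ 1 → Q ⊓ C1[v] = Q0 G a
  w1 : w ≠ 1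
  hx : x ∈ Q
  hx0 : x ∉ Q0 G a
  e0 : t • x • t • a = w • (x * x) • x • t • a
  co : Co0 (KK a t ⊔ zpowers w) Q (Q0 G a) c l
  cx : c x = 1
  σσ : ∀ u, σ (σ u) = u
  fix : ∀ u, σ u = u ↔ u = 0 ∨ ∃ k ∈ KK a t, l k = u
  σw : σ (l w) * l w = 1
  wn : σ (l w) ≠ l w
  ξ1 : ∀ y ∈ Q, ξ (y • t • a) = c y
  e1 : e 1 = 0
  e2 : ∀ k ∈ KK a t, e (k * s * k⁻¹) = l k ^ 2
  η0 : ∀ z ∈ Q0 G a, η (z • t • a) = e z
  η1 : ∀ b, w • b ≠ b → η b * ξ (t • b) = ξ b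

variable {G Ω : Type*} [Group G] [Finite G] [MulAction G Ω] {a : Ω} {t : G} {Q : Subgroup G}

local notation "H" => stabilizer G a
local notation "D" => DD a t
local notation "K" => invertedBy (DD a t) t
local notation "I" => involutionsIn (SetLike.coe (stabilizer G a))

theorem RO.Q0_cases (h : RO a t Q) (h2 : R2 G) {s z : G} (hs : s ∈ I) (hz : z ∈ Q0 G a) :
    z = 1 ∨ ∃ k ∈ KK a t, z = k * s * k⁻¹ := by
  refine or_iff_not_imp_left.2 fun z1 => ?_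
  obtain ⟨k, hk, e⟩ := h.K_trans hs (h.Q0_I h2 hz z1)
  exact ⟨k⁻¹, inv_mem ((h.mem_KK h2).2 hk), by rw [inv_inv, e]⟩

namespace U3

variable {s w x : G} {E : Type*} [Field E] [CharP E 2] {σ : E →+* E} {c l e : G → E} {ξ η : Ω → E}

theorem hc (h : U3 a t Q s w x σ c l e ξ η) : Q ⊓ C1[w] = Q0 G a := h.hW w h.hw h.w1

theorem kA {k : G} (hk : k ∈ KK a t) : k ∈ KK a t ⊔ zpowers w := mem_sup_left hk

theorem wA : w ∈ KK a t ⊔ zpowers w := mem_sup_right (mem_zpowers w)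

theorem AD (h : U3 a t Q s w x σ c l e ξ η) : KK a t ⊔ zpowers w ≤ D := sup_le RO.KK_le (zpowers_le.2 h.hw.1)

theorem σk (h : U3 a t Q s w x σ c l e ξ η) {k : G} (hk : k ∈ KK a t) : σ (l k) = l k :=
  (h.fix _).2 (.inr ⟨k, hk, rfl⟩)

theorem z0 (h : U3 a t Q s w x σ c l e ξ η) : x * x ∈ Q0 G a := h.sq h.hx

theorem s0 (h : U3 a t Q s w x σ c l e ξ η) : s ∈ Q0 G a := RO.I_Q0 h.sI

theorem zk (h : U3 a t Q s w x σ c l e ξ η) {k : G} (hk : k ∈ KK a t) : k * s * k⁻¹ ∈ Q0 G a :=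
  h.KK_conj hk h.s0

theorem zk' (h : U3 a t Q s w x σ c l e ξ η) {k : G} (hk : k ∈ KK a t) : k⁻¹ * s * k ∈ Q0 G a := by
  simpa using h.zk (inv_mem hk)

theorem nf (h : U3 a t Q s w x σ c l e ξ η) {y : G} (hy : y ∈ Q) :
    w • y • t • a ≠ y • t • a ↔ y ∉ Q0 G a := by
  rw [Ne, h.fix_iff h.hw.1 hy, ← h.hc, mem_inf, and_iff_right hy]

theorem O_ne (h : U3 a t Q s w x σ c l e ξ η) {b : Ω} (hb : w • b ≠ b) : b ≠ a :=
  fun e => hb (by rw [e]; exact h.hw.1.1)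

theorem O_smul {g : G} (hg : w * g = g * w) {b : Ω} (hb : w • b ≠ b) : w • g • b ≠ g • b := fun e => hb (by
  rw [← mul_smul, hg, mul_smul] at e; exact (smul_left_cancel_iff g).1 e)

theorem O_t (h : U3 a t Q s w x σ c l e ξ η) {b : Ω} (hb : w • b ≠ b) : w • t • b ≠ t • b :=
  O_smul (h.W_tt h.hw) hb

theorem O_z (h : U3 a t Q s w x σ c l e ξ η) {z : G} (hz : z ∈ Q0 G a) {b : Ω} (hb : w • b ≠ b) :
    w • z • b ≠ z • b := O_smul (RO.W_z h.hw hz) hb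

theorem O_k (h : U3 a t Q s w x σ c l e ξ η) {k : G} (hk : k ∈ KK a t) {b : Ω} (hb : w • b ≠ b) :
    w • k • b ≠ k • b := O_smul (h.W_k h.hw hk) hb

theorem O_p (h : U3 a t Q s w x σ c l e ξ η) : w • x • t • a ≠ x • t • a := (h.nf h.hx).2 h.hx0

theorem ξq (h : U3 a t Q s w x σ c l e ξ η) {y : G} (hy : y ∈ Q) {b : Ω} (hb : b ≠ a) :
    ξ (y • b) = c y + ξ b := by
  obtain ⟨y', hy', rfl⟩ := h.ex_q hb
  rw [← mul_smul, h.ξ1 _ (mul_mem hy hy'), h.ξ1 _ hy', h.co.add _ hy _ hy']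

theorem ξz (h : U3 a t Q s w x σ c l e ξ η) {z : G} (hz : z ∈ Q0 G a) {b : Ω} (hb : b ≠ a) :
    ξ (z • b) = ξ b := by rw [h.ξq (h.Q0_le hz) hb, h.co.zero hz, zero_add]

theorem ξd (h : U3 a t Q s w x σ c l e ξ η) {d : G} (hd : d ∈ KK a t ⊔ zpowers w) {b : Ω} (hb : b ≠ a) :
    ξ (d • b) = l d * ξ b := by
  obtain ⟨y', hy', rfl⟩ := h.ex_q hb
  rw [← RO.smul_ta (h.AD hd), h.ξ1 _ (h.conj_Q (h.AD hd).1 hy'), h.ξ1 _ hy', h.co.conj _ hd _ hy']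

theorem ξO (h : U3 a t Q s w x σ c l e ξ η) {b : Ω} (hb : b ≠ a) : w • b ≠ b ↔ ξ b ≠ 0 := by
  obtain ⟨y', hy', rfl⟩ := h.ex_q hb
  rw [h.nf hy', h.ξ1 _ hy', Ne, h.co.ker _ hy']

theorem row (h : U3 a t Q s w x σ c l e ξ η) {b b' : Ω} (hb : b ≠ a) (hb' : b' ≠ a) (he : ξ b = ξ b') :
    ∃ z ∈ Q0 G a, b = z • b' := by
  obtain ⟨y, hy, rfl⟩ := h.ex_q hb
  obtain ⟨y', hy', rfl⟩ := h.ex_q hb'
  rw [h.ξ1 _ hy, h.ξ1 _ hy', h.co.eq_iff' hy hy'] at he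
  exact ⟨_, he, by simp [mul_smul]⟩

theorem ek (h : U3 a t Q s w x σ c l e ξ η) {k z : G} (hk : k ∈ KK a t) (hz : z ∈ Q0 G a) :
    e (k * z * k⁻¹) = l k ^ 2 * e z := by
  rcases h.Q0_cases h.r2 h.sI hz with rfl | ⟨m, hm, rfl⟩
  · simp [h.e1]
  · rw [show k * (m * s * m⁻¹) * k⁻¹ = (k * m) * s * (k * m)⁻¹ by group, h.e2 _ (mul_mem hk hm), h.e2 _ hm,
      h.co.lmul (kA hk) (kA hm), mul_pow]

theorem e2' (h : U3 a t Q s w x σ c l e ξ η) {k : G} (hk : k ∈ KK a t) : e (k⁻¹ * s * k) = (l k ^ 2)⁻¹ := by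
  have := h.e2 _ (inv_mem hk)
  rwa [inv_inv, h.co.linv (kA hk), inv_pow] at this

theorem σe (h : U3 a t Q s w x σ c l e ξ η) {z : G} (hz : z ∈ Q0 G a) : σ (e z) = e z := by
  rcases h.Q0_cases h.r2 h.sI hz with rfl | ⟨m, hm, rfl⟩
  · simp [h.e1]
  · rw [h.e2 _ hm, map_pow, h.σk hm]

theorem linj (h : U3 a t Q s w x σ c l e ξ η) {k m : G} (hk : k ∈ KK a t) (hm : m ∈ KK a t) (he : l k = l m) :
    k = m := by
  have := h.sze.sec_fpf le_rfl h.Q0_le h.sze.kE (mul_mem (inv_mem hm) hk) h.hx h.hx0 (by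
    have hkm := mul_mem (inv_mem hm) hk
    rw [← h.co.eq_iff h.hx (h.conj_Q (RO.KK_le hkm).1 h.hx), h.co.conj _ (kA hkm) _ h.hx,
      h.co.lmul (kA (inv_mem hm)) (kA hk), h.co.linv (kA hm), he, inv_mul_cancel₀ (h.co.lne (kA hm)), one_mul])
  exact (inv_mul_eq_one.1 this).symm

theorem einj (h : U3 a t Q s w x σ c l e ξ η) {y z : G} (hy : y ∈ Q0 G a) (hz : z ∈ Q0 G a) (he : e y = e z) :
    y = z := by
  rcases h.Q0_cases h.r2 h.sI hy with rfl | ⟨k, hk, rfl⟩ <;>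
  rcases h.Q0_cases h.r2 h.sI hz with rfl | ⟨m, hm, rfl⟩
  · rfl
  · rw [h.e1, h.e2 _ hm] at he; exact absurd he.symm (pow_ne_zero _ (h.co.lne (kA hm)))
  · rw [h.e1, h.e2 _ hk] at he; exact absurd he (pow_ne_zero _ (h.co.lne (kA hk)))
  · rw [h.e2 _ hm, h.e2 _ hk] at he
    rw [h.linj hk hm (by grind)]

theorem sqrt (h : U3 a t Q s w x σ c l e ξ η) (u : E) (hu : σ u = u) : ∃ v, σ v = v ∧ v * v = u := by
  rcases (h.fix u).1 hu with rfl | ⟨k, hk, rfl⟩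
  · exact ⟨0, map_zero σ, mul_zero _⟩
  · obtain ⟨m, hm, rfl⟩ := h.KK_sqrt h.r2 hk
    exact ⟨l m, h.σk hm, (h.co.lmul (kA hm) (kA hm)).symm⟩

theorem esurj (h : U3 a t Q s w x σ c l e ξ η) {u : E} (hu : σ u = u) : ∃ z ∈ Q0 G a, e z = u := by
  obtain ⟨v, hv, rfl⟩ := h.sqrt u hu
  rcases (h.fix v).1 hv with rfl | ⟨k, hk, rfl⟩
  · exact ⟨1, one_mem _, by rw [h.e1, mul_zero]⟩
  · exact ⟨_, h.zk hk, by rw [h.e2 _ hk, pow_two]⟩

theorem xi (h : U3 a t Q s w x σ c l e ξ η) : x⁻¹ = x * x * x := by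
  rw [inv_eq_iff_mul_eq_one, ← h.sze.sq h.z0]; group

theorem tp (h : U3 a t Q s w x σ c l e ξ η) : t • (x * x) • x • t • a = w⁻¹ • x • t • a := by
  rw [eq_inv_smul_iff, ← mul_smul w, h.W_tt h.hw, mul_smul, ← h.e0, smul_smul t t, h.tt, one_smul]

/-- the action of `t z t` on points -/
theorem tzt' (h : U3 a t Q s w x σ c l e ξ η) {k : G} (hk : k ∈ KK a t) (b : Ω) :
    t • (k * s * k⁻¹) • t • b = (k⁻¹ * s * k) • (k⁻¹ * k⁻¹) • t • (k⁻¹ * s * k) • b := by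
  have := h.tzt h.str ((h.mem_KK h.r2).1 hk)
  rw [← mul_smul t, ← mul_smul _ t, this, mul_smul, mul_smul, mul_smul]

theorem lkk (h : U3 a t Q s w x σ c l e ξ η) {k : G} (hk : k ∈ KK a t) : l (k⁻¹ * k⁻¹) = (l k ^ 2)⁻¹ := by
  rw [h.co.lmul (kA (inv_mem hk)) (kA (inv_mem hk)), h.co.linv (kA hk), pow_two, mul_inv]

theorem star2 (h : U3 a t Q s w x σ c l e ξ η) {k : G} (hk : k ∈ KK a t) :
    ξ (t • (k * s * k⁻¹ * (x * x)) • x • t • a) * l w * l k ^ 2 = ξ (t • (k⁻¹ * s * k) • x • t • a) := by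
  have o1 := h.O_t (h.O_z (h.zk' hk) h.O_p)
  have kk := mul_mem (inv_mem hk) (inv_mem hk)
  have e1 : (x * x) • x • t • a = t • w⁻¹ • x • t • a := by rw [← h.tp, smul_smul t t, h.tt, one_smul]
  have cm : ∀ g : G, w * g = g * w → ∀ b : Ω, g • w⁻¹ • b = w⁻¹ • g • b := fun g hg b => by
    rw [← mul_smul, ← mul_smul, (Commute.inv_left hg).eq]
  rw [mul_smul _ (x * x), e1, h.tzt' hk, cm _ (RO.W_z h.hw (h.zk' hk)), cm _ (h.W_tt h.hw),
    h.ξz (h.zk' hk) (RO.smul_ne (RO.KK_le kk).1 (RO.smul_ne (inv_mem h.hw.1.1) (h.O_ne o1))),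
    h.ξd (kA kk) (RO.smul_ne (inv_mem h.hw.1.1) (h.O_ne o1)), h.ξd (inv_mem wA) (h.O_ne o1), h.lkk hk,
    h.co.linv wA]
  have := h.co.lne (kA (w := w) hk)
  have := h.co.lne (wA (w := w))
  field_simp

theorem bru_x (h : U3 a t Q s w x σ c l e ξ η) : ∃ d ∈ D ⊓ C1[t], d * w = w * d ∧
    w ^ 3 * d⁻¹ * x = x * (w ^ 3 * d⁻¹) ∧ t * x * t = (w * x⁻¹ * w⁻¹) * d * t * (w⁻¹ * x⁻¹ * w) := by
  have x1 : x ≠ 1 := fun e => h.hx0 (e ▸ one_mem _)
  obtain ⟨g, hg, d, hd, f, hf, eb⟩ := h.bru3 (h.tqt_nmem h.hx x1)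
  have wD := h.hw.1
  have wt := h.W_tt h.hw
  have eg : g = w * x⁻¹ * w⁻¹ := h.q_inj hg (h.conj_Q wD.1 (inv_mem h.hx)) h.ta (by
    rw [RO.smul_ta wD, h.xi, mul_smul _ x, ← h.e0, ← mul_smul t, ← mul_smul (t * x) t, eb, mul_smul, mul_smul,
      mul_smul, show f • a = a from h.le hf, show d • t • a = t • a from hd.2])
  have ef : f⁻¹ = w⁻¹ * x * w⁻¹⁻¹ := h.q_inj (inv_mem hf) (h.conj_Q (inv_mem wD.1) h.hx) h.ta (by
    have := congrArg (· • a) (h.f_inv eb)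
    simp only [mul_smul] at this
    rw [show g⁻¹ • a = a from h.le (inv_mem hg), h.tta, show d⁻¹ • a = a from (inv_mem hd : d⁻¹ ∈ D).1,
      h.xi] at this
    rw [← this, RO.smul_ta (inv_mem wD), ← h.tp, mul_smul _ x])
  have ef' : f = w⁻¹ * x⁻¹ * w := by rw [← inv_inv f, ef]; group
  have e1 := h.f_f eb
  have e2 : t * f * t = (w⁻¹ * f⁻¹ * w) * (w⁻¹ * (t * d⁻¹ * t) * w) * t * (w⁻¹ * g⁻¹ * w) := by
    calc t * f * t = (t * w⁻¹) * x⁻¹ * (w * t) := by rw [ef']; group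
      _ = w⁻¹ * (t * x⁻¹ * t) * w := by rw [wt, ← (Commute.inv_left wt).eq]; group
      _ = w⁻¹ * f⁻¹ * (t * d⁻¹ * t) * (t * w) * (w⁻¹ * g⁻¹ * w) := by rw [h.f_inv eb]; group
      _ = _ := by rw [← wt]; group
  obtain ⟨f1, f2, -⟩ := h.bru3_unique (h.conj_Q' hd.1 (inv_mem hg)) (inv_mem hd) h.hx
    (h.conj_Q' wD.1 (inv_mem hf)) (mul_mem (mul_mem (inv_mem wD) (h.tD (inv_mem hd))) wD)
    (h.conj_Q' wD.1 (inv_mem hg)) (e1.symm.trans e2)
  have c1 : Commute d⁻¹ (t * w) := by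
    calc d⁻¹ * (t * w) = t * (t * d⁻¹ * t * w) := by rw [← mul_assoc t, ← mul_assoc t, ← mul_assoc t, h.tt]; group
      _ = t * w * (w⁻¹ * (t * d⁻¹ * t) * w) := by group
      _ = _ := by rw [← f2]
  obtain ⟨n, hn⟩ := odd_of_mem h.od wD
  have c2 : Commute d⁻¹ t := by
    have := c1.pow_right (2 * n + 1)
    rwa [(show Commute t w from wt.symm).mul_pow, ← hn, pow_orderOf_eq_one, mul_one, hn, pow_succ, pow_mul,
      pow_two, h.tt, one_pow, one_mul] at this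
  have c3 : Commute d⁻¹ w := by
    have := c2.mul_right c1
    rwa [h.tt'] at this
  refine ⟨d, ⟨hd, mc1.2 (by simpa using c2.inv_left.eq)⟩, by simpa using c3.inv_left.eq, ?_, by rw [eb, eg, ef']⟩
  rw [eg, ef] at f1
  have c4 : d⁻¹ * w = w * d⁻¹ := c3.eq
  rw [pow_three']
  calc w * w * w * d⁻¹ * x = w * w * (w * d⁻¹) * x := by group
    _ = w * w * (d⁻¹ * (w * x⁻¹ * w⁻¹)⁻¹ * d) * (d⁻¹ * w) := by rw [← c4]; group
    _ = _ := by rw [f1, c4]; group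

theorem pt (h : U3 a t Q s w x σ c l e ξ η) {d k : G}
    (eb : t * x * t = (w * x⁻¹ * w⁻¹) * d * t * (w⁻¹ * x⁻¹ * w)) (hk : k ∈ KK a t) :
    t • (k * s * k⁻¹) • x • t • a = (w * x⁻¹ * w⁻¹) • (d * w⁻¹) • t • (k⁻¹ * s * k * (x * x)) • x • t • a := by
  have kk := mul_mem (inv_mem hk) (inv_mem hk)
  have e1 : t • (k * s * k⁻¹) • t • a = (k⁻¹ * s * k) • t • a := by
    rw [h.tzt' hk, show (k⁻¹ * s * k) • a = a from h.le (h.Q0_le (h.zk' hk)),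
      show (k⁻¹ * k⁻¹) • t • a = t • a from (RO.KK_le kk).2]
  have e2 : w • (k⁻¹ * s * k) • t • a = (k⁻¹ * s * k) • t • a :=
    not_not.1 (mt (h.nf (h.Q0_le (h.zk' hk))).1 (not_not.2 (h.zk' hk)))
  calc t • (k * s * k⁻¹) • x • t • a = (t * x * t) • t • (k * s * k⁻¹) • t • a := by
        rw [← mul_smul _ x, ← h.sze.comm (h.zk hk) h.hx]; simp only [mul_smul, smul_smul t t, h.tt, one_smul]
    _ = (w * x⁻¹ * w⁻¹) • d • (t * w⁻¹) • (x⁻¹ * (k⁻¹ * s * k)) • t • a := by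
        rw [e1, eb, mul_smul, mul_smul, mul_smul, mul_smul _ w, e2]; simp only [mul_smul]
    _ = _ := by
        rw [← (Commute.inv_left (h.W_tt h.hw)).eq, h.sze.comm (h.zk' hk) (inv_mem h.hx), h.xi]
        simp only [mul_smul]

theorem cg (h : U3 a t Q s w x σ c l e ξ η) : c (w * x⁻¹ * w⁻¹) = l w := by
  rw [h.co.conj _ wA _ (inv_mem h.hx), h.co.inv h.hx, h.cx, CharTwo.neg_eq, mul_one]

theorem eF (h : U3 a t Q s w x σ c l e ξ η) {d v : G} (hd : d ∈ D ⊓ C1[t]) (dw : d * w = w * d)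
    (ev : v = w ^ 3 * d⁻¹) (vx : v * x = x * v)
    (eb : t * x * t = (w * x⁻¹ * w⁻¹) * d * t * (w⁻¹ * x⁻¹ * w)) {y : G} (hy : y ∈ Q0 G a) :
    ξ (t • y • x • t • a) * (1 + e y * e (v * (y * (x * x)) * v⁻¹)) = σ (l w) + e (v * (y * (x * x)) * v⁻¹) ∧
    e y = l w + σ (l w) + e (v * (v * (y * (x * x)) * v⁻¹) * v⁻¹) := by
  have wD := h.hw.1
  have hv : v ∈ D ⊓ C1[t] := ev ▸ mul_mem (pow_mem (mem_inf.2 ⟨wD, h.W_t h.hw⟩) 3) (inv_mem hd)
  have vw : Commute v w := by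
    rw [ev]; exact Commute.mul_left ((Commute.refl w).pow_left 3) (Commute.inv_left dw)
  have vs : v * s * v⁻¹ = s := (h.V_le h.sI (h.I_Q h.sI) (by rw [inv_of_sq h.sI.2.2]; exact h.str) hv).1
  have vQ : ∀ z ∈ Q0 G a, v * z * v⁻¹ ∈ Q0 G a := fun z hz => conj_mem_of_norm (RO.n_Q0 hv.1.1) hz
  have vK : ∀ k ∈ KK a t, v * k * v⁻¹ ∈ KK a t := fun k hk => conj_mem_of_norm (h.n_KK hv.1) hk
  have vz : ∀ y, v * (y * (x * x)) * v⁻¹ = v * y * v⁻¹ * (x * x) := fun y => by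
    have : Commute v (x * x) := Commute.mul_right vx vx
    rw [mul_assoc _ v⁻¹, this.inv_left.eq]; group
  have w0 := h.co.lne (wA (w := w))
  have σw := h.σw
  set F : G → E := fun y => ξ (t • y • x • t • a) with hF
  have s1 : ∀ k ∈ KK a t, F (v * (k * s * k⁻¹) * v⁻¹) = l w + l w ^ 2 * F (k⁻¹ * s * k * (x * x)) := by
    intro k hk
    have o1 := h.O_ne (h.O_t (h.O_z (mul_mem (h.zk' hk) h.z0) h.O_p))
    have e1 : t • (v * (k * s * k⁻¹) * v⁻¹) • x • t • a = v • t • (k * s * k⁻¹) • x • t • a := by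
      rw [mul_smul _ v⁻¹, mul_smul v, ← mul_smul v⁻¹, (Commute.inv_left vx).eq, mul_smul x,
        show v⁻¹ • t • a = t • a from (inv_mem hv.1 : v⁻¹ ∈ D).2, ← mul_smul t v, ← mc1.1 hv.2, mul_smul]
    have e2 : v * (w * x⁻¹ * w⁻¹) * (d * w⁻¹) = (w * x⁻¹ * w⁻¹) * (w * w) := by
      rw [((vw.mul_right (Commute.inv_right vx)).mul_right vw.inv_right).eq, ev, pow_three']; group
    simp only [hF]
    rw [e1, h.pt eb hk, ← mul_smul v, ← mul_smul _ (d * w⁻¹), e2, mul_smul,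
      h.ξq (h.conj_Q wD.1 (inv_mem h.hx)) (RO.smul_ne (mul_mem wD.1 wD.1) o1), h.cg,
      h.ξd (mul_mem wA wA) o1, h.co.lmul wA wA, pow_two]
  have s2 : ∀ k ∈ KK a t, F (k * s * k⁻¹ * (x * x)) * l w * l k ^ 2 = F (k⁻¹ * s * k) := fun k hk => h.star2 hk
  have F1 : F 1 = l w := by
    simp only [hF]
    rw [one_smul, h.e0, h.ξd wA (h.O_ne (h.O_z h.z0 h.O_p)), h.ξz h.z0 (h.O_ne h.O_p), h.ξ1 _ h.hx, h.cx, mul_one]
  have F2 : F (x * x) = σ (l w) := by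
    simp only [hF]
    rw [h.tp, h.ξd (inv_mem wA) (h.O_ne h.O_p), h.ξ1 _ h.hx, h.cx, mul_one, h.co.linv wA]
    exact (eq_inv_of_mul_eq_one_left σw).symm
  have s3 : ∀ y ∈ Q0 G a, F (v * y * v⁻¹) = l w + l w * e y * F y := fun y hy => by
    rcases h.Q0_cases h.r2 h.sI hy with rfl | ⟨k, hk, rfl⟩
    · simp [F1, h.e1]
    · have := s2 _ (inv_mem hk)
      rw [inv_inv, h.co.linv (kA hk)] at this
      have k0 := h.co.lne (kA (w := w) hk)
      rw [s1 k hk, h.e2 _ hk, ← this]; field_simp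
  have zz := h.sze.sq h.z0
  have s4 : ∀ y ∈ Q0 G a, F y * (1 + e y * e (v * (y * (x * x)) * v⁻¹)) =
      σ (l w) + e (v * (y * (x * x)) * v⁻¹) := fun y hy => by
    have ey : y = y * (x * x) * (x * x) := by rw [mul_assoc, zz, mul_one]
    rcases h.Q0_cases h.r2 h.sI (mul_mem hy h.z0) with e1 | ⟨k, hk, e1⟩
    · rw [e1, one_mul] at ey
      rw [e1, ey, F2]; simp [h.e1]
    · have f1 := s2 _ (vK k hk)
      have f2 := s1 _ (inv_mem hk)
      have f3 := s3 y hy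
      have g1 : v * (k * s * k⁻¹) * v⁻¹ = v * k * v⁻¹ * s * (v * k * v⁻¹)⁻¹ := by
        conv_rhs => rw [← vs]
        group
      have g2 : v * (k⁻¹ * s * k⁻¹⁻¹) * v⁻¹ = (v * k * v⁻¹)⁻¹ * s * (v * k * v⁻¹) := by
        conv_rhs => rw [← vs]
        group
      rw [g2, inv_inv, ← e1, ← ey] at f2
      rw [f2, ← g1, ← e1, vz, mul_assoc _ (x * x), zz, mul_one, f3] at f1
      rw [e1, g1, h.e2 _ (vK k hk)]
      grind
  refine ⟨s4 y hy, ?_⟩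
  have f1 := s4 y hy
  have f2 := s4 _ (vQ y hy)
  rw [s3 y hy, ← vz] at f2
  have a1 := h.σe hy
  have a2 := h.σe (vQ _ (mul_mem hy h.z0))
  have a3 := h.σe (vQ _ hy)
  have a4 := h.σe (vQ _ (vQ _ (mul_mem hy h.z0)))
  have wn := h.wn
  set A := e y
  set B := e (v * (y * (x * x)) * v⁻¹)
  set A' := e (v * y * v⁻¹)
  set B' := e (v * (v * (y * (x * x)) * v⁻¹) * v⁻¹)
  have u0 : 1 + A * B ≠ 0 := fun e => wn (by
    have : σ (l w) = B := by grind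
    rw [← h.σσ (l w), this, a2, a2])
  have f3 : (l w + A) * (1 + A' * B') = (σ (l w) + B') * (1 + A * B) := by grind
  have f4 := congrArg σ f3
  simp only [map_mul, map_add, map_one, a1, a2, a3, a4, h.σσ] at f4
  have f5 : (l w + σ (l w)) * ((1 + A' * B') + (1 + A * B)) = 0 := by grind
  have f6 : 1 + A' * B' = 1 + A * B := by grind
  rw [f6] at f3
  have := mul_right_cancel₀ u0 f3
  grind

theorem main1 (h : U3 a t Q s w x σ c l e ξ η) :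
    t * x * t = (w * x⁻¹ * w⁻¹) * w ^ 3 * t * (w⁻¹ * x⁻¹ * w) ∧ ∀ y ∈ Q0 G a,
      ξ (t • y • x • t • a) * (e y + σ (l w)) = 1 ∧ e (y * (x * x)) = e y + (l w + σ (l w)) := by
  obtain ⟨d, hd, dw, vx, eb⟩ := h.bru_x
  obtain ⟨v, ev⟩ : ∃ v, v = w ^ 3 * d⁻¹ := ⟨_, rfl⟩
  rw [← ev] at vx
  have hv : v ∈ D := ev ▸ mul_mem (pow_mem h.hw.1 3) (inv_mem hd.1)
  have vQ : ∀ z ∈ Q0 G a, v * z * v⁻¹ ∈ Q0 G a := fun z hz => conj_mem_of_norm (RO.n_Q0 hv.1) hz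
  have cz : Commute v (x * x) := Commute.mul_right vx vx
  have f4 : v ^ 4 ∈ C[Q0 G a] := mem_cent_iff.2 fun y hy => by
    have f1 := (h.eF hd dw ev vx eb hy).2
    have f2 := (h.eF hd dw ev vx eb (vQ _ (vQ _ (mul_mem hy h.z0)))).2
    have f3 : v * (v * (v * (v * (y * (x * x)) * v⁻¹) * v⁻¹ * (x * x)) * v⁻¹) * v⁻¹ = v ^ 4 * y * (v ^ 4)⁻¹ := by
      have c2 := (cz.inv_left.mul_left cz.inv_left).eq
      rw [show v ^ 4 = v * v * v * v by simp only [pow_succ, pow_zero, one_mul]]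
      calc v * (v * (v * (v * (y * (x * x)) * v⁻¹) * v⁻¹ * (x * x)) * v⁻¹) * v⁻¹
          = v * v * v * v * y * (x * x) * (v⁻¹ * v⁻¹ * (x * x)) * v⁻¹ * v⁻¹ := by group
        _ = v * v * v * v * y * ((x * x) * (x * x)) * (v * v * v * v)⁻¹ := by rw [c2]; group
        _ = _ := by rw [h.sze.sq h.z0, mul_one]
    rw [f3] at f2
    have := h.einj (conj_mem_of_norm (RO.n_Q0 (pow_mem hv 4).1) hy) hy (by grind)
    exact (mul_inv_eq_iff_eq_mul.1 this).symm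
  have vC : v ∈ C[Q0 G a] := by
    obtain ⟨n, hn⟩ := odd_of_mem h.od hv
    have : v = (v ^ 4) ^ ((n + 1) * (n + 1)) := by
      rw [← pow_mul, show 4 * ((n + 1) * (n + 1)) = (2 * n + 1) * (2 * n + 3) + 1 by ring, pow_succ, pow_mul, ← hn,
        pow_orderOf_eq_one, one_pow, one_mul]
    rw [this]; exact pow_mem f4 _
  have v1 : v = 1 := by
    by_contra v1
    exact h.hx0 (h.hW v ⟨hv, vC⟩ v1 ▸ mem_inf.2 ⟨h.hx, mc1.2 vx.symm⟩)
  have ed : d = w ^ 3 := (mul_inv_eq_one.1 (ev ▸ v1)).symm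
  refine ⟨ed ▸ eb, fun y hy => ?_⟩
  obtain ⟨f1, f2⟩ := h.eF hd dw ev vx eb hy
  simp only [v1, one_mul, inv_one, mul_one] at f1 f2
  have σw := h.σw
  have u0 : e y + l w ≠ 0 := fun e' => h.wn (by rw [← CharTwo.add_eq_zero.1 e', h.σe hy])
  exact ⟨mul_right_cancel₀ u0 (by grind), by grind⟩

end U3

end CfsgRO
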