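import Cfsg.Agent.H3.RO6

/-! Split rank one set-up with `|Q| = q ^ 3`: the action in unitary coordinates. -/

set_option autoImplicit false
open Subgroup Cfsg CfsgH2 CfsgH1 CfsgH3 Function MulAction
open scoped commutatorElement IsMulCommutative

namespace CfsgRO

variable {G Ω : Type*} [Group G] [Finite G] [MulAction G Ω] {a : Ω} {t : G} {Q : Subgroup G}

local notation "H" => stabilizer G a
local notation "D" => DD a t
local notation "K" => invertedBy (DD a t) t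
local notation "I" => involutionsIn (SetLike.coe (stabilizer G a))

namespace U3

variable {s w x : G} {E : Type*} [Field E] [CharP E 2] {σ : E →+* E} {c l e : G → E} {ξ η : Ω → E}

theorem hF (h : U3 a t Q s w x σ c l e ξ η) {y : G} (hy : y ∈ Q0 G a) :
    ξ (t • y • x • t • a) * (e y + σ (l w)) = 1 := (h.main1.2 y hy).1

theorem ez0 (h : U3 a t Q s w x σ c l e ξ η) : e (x * x) = l w + σ (l w) := by
  simpa [h.e1] using (h.main1.2 1 (one_mem _)).2

theorem eadd (h : U3 a t Q s w x σ c l e ξ η) {y z : G} (hy : y ∈ Q0 G a) (hz : z ∈ Q0 G a) :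
    e (y * z) = e y + e z := by
  by_cases z1 : z = 1
  · rw [z1, mul_one, h.e1, add_zero]
  obtain ⟨k, hk, rfl⟩ := h.K_trans (h.Q0_I h.r2 h.z0 (h.sq_ne h.hx h.hx0)) (h.Q0_I h.r2 hz z1)
  have hk' := inv_mem ((h.mem_KK h.r2).2 hk)
  have hy' := h.KK_conj (inv_mem hk') hy
  have e1 := h.ek hk' (mul_mem hy' h.z0)
  have e2 := h.ek hk' hy'
  have e3 := h.ek hk' h.z0
  rw [(h.main1.2 _ hy').2, ← h.ez0, mul_add, ← e2, ← e3] at e1
  simp only [inv_inv] at e1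
  convert e1 using 2 <;> group

theorem ηB (h : U3 a t Q s w x σ c l e ξ η) {b : Ω} (hb : b ≠ a) (hO : ¬ w • b ≠ b) :
    ∃ z ∈ Q0 G a, b = z • t • a := by
  obtain ⟨y, hy, rfl⟩ := h.ex_q hb
  exact ⟨y, not_not.1 (mt (h.nf hy).2 hO), rfl⟩

theorem ξt (h : U3 a t Q s w x σ c l e ξ η) {b : Ω} (hO : w • b ≠ b) : ξ (t • b) ≠ 0 :=
  (h.ξO (h.O_ne (h.O_t hO))).1 (h.O_t hO)

theorem ηk (h : U3 a t Q s w x σ c l e ξ η) {k : G} (hk : k ∈ KK a t) {b : Ω} (hb : b ≠ a) :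
    η (k • b) = l k ^ 2 * η b := by
  by_cases hO : w • b ≠ b
  · have e1 := h.η1 _ (h.O_k hk hO)
    have k0 := h.co.lne (kA (w := w) hk)
    rw [← mul_smul, h.tk' ((h.mem_KK h.r2).1 hk), mul_smul, h.ξd (kA (inv_mem hk)) (h.O_ne (h.O_t hO)),
      h.ξd (kA hk) hb, h.co.linv (kA hk), ← h.η1 b hO] at e1
    have := h.ξt hO
    field_simp at e1
    exact e1
  · obtain ⟨z, hz, rfl⟩ := h.ηB hb hO
    rw [← RO.smul_ta (RO.KK_le hk), h.η0 _ (h.KK_conj hk hz), h.η0 _ hz, h.ek hk hz]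

theorem ηw (h : U3 a t Q s w x σ c l e ξ η) (b : Ω) : η (w • b) = η b := by
  by_cases hO : w • b ≠ b
  · have e1 := h.η1 _ (O_smul rfl hO)
    have k0 := h.co.lne (wA (w := w))
    rw [← mul_smul, ← h.W_tt h.hw, mul_smul, h.ξd wA (h.O_ne (h.O_t hO)), h.ξd wA (h.O_ne hO),
      ← h.η1 b hO] at e1
    have := h.ξt hO
    field_simp at e1
    exact e1
  · rw [not_not.1 hO]

theorem ηyp (h : U3 a t Q s w x σ c l e ξ η) {y : G} (hy : y ∈ Q0 G a) :
    η (y • x • t • a) = e y + σ (l w) := by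
  have e1 := h.η1 _ (h.O_z hy h.O_p)
  rw [h.ξz hy (h.O_ne h.O_p), h.ξ1 _ h.hx, h.cx] at e1
  have := h.hF hy
  grind

theorem ηtp (h : U3 a t Q s w x σ c l e ξ η) {y : G} (hy : y ∈ Q0 G a) :
    η (t • y • x • t • a) = ξ (t • y • x • t • a) := by
  have e1 := h.η1 _ (h.O_t (h.O_z hy h.O_p))
  rwa [smul_smul t t, h.tt, one_smul, h.ξz hy (h.O_ne h.O_p), h.ξ1 _ h.hx, h.cx, mul_one] at e1

theorem prop (h : U3 a t Q s w x σ c l e ξ η) {b : Ω} (hb : b ≠ a) :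
    (∀ z ∈ Q0 G a, η (z • b) = η b + e z) ∧ η b + σ (η b) = (l w + σ (l w)) * (ξ b * σ (ξ b)) := by
  let P : Ω → Prop := fun b => b ≠ a ∧ (∀ z ∈ Q0 G a, η (z • b) = η b + e z) ∧
    η b + σ (η b) = (l w + σ (l w)) * (ξ b * σ (ξ b))
  have Pz : ∀ z ∈ Q0 G a, ∀ b, P b → P (z • b) := fun z hz b ⟨h0, h1, h2⟩ =>
    ⟨RO.smul_ne (h.le (h.Q0_le hz)) h0, fun y hy => by
      rw [← mul_smul, h1 _ (mul_mem hy hz), h1 _ hz, h.eadd hy hz]; ring, by
      rw [h1 _ hz, h.ξz hz h0, map_add, h.σe hz, ← h2]; grind⟩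
  have Pk : ∀ k ∈ KK a t, ∀ b, P b → P (k • b) := fun k hk b ⟨h0, h1, h2⟩ =>
    ⟨RO.smul_ne (RO.KK_le hk).1 h0, fun y hy => by
      have hy' := h.KK_conj (inv_mem hk) hy
      have := h.ek hk hy'
      rw [← mul_smul, show y * k = k * (k⁻¹ * y * k⁻¹⁻¹) by group, mul_smul,
        h.ηk hk (RO.smul_ne (h.le (h.Q0_le hy')) h0), h1 _ hy', h.ηk hk h0, mul_add, ← this]
      congr 2; group, by
      rw [h.ηk hk h0, h.ξd (kA hk) h0, map_mul, map_mul, map_pow, h.σk hk]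
      linear_combination l k ^ 2 * h2⟩
  have σw := h.σw
  have P0 : P (t • a) := by
    have e0 : η (t • a) = 0 := by simpa [h.e1] using h.η0 1 (one_mem _)
    have e1 : ξ (t • a) = 0 := by simpa [h.co.one] using h.ξ1 1 (one_mem _)
    exact ⟨h.ta, fun z hz => by rw [h.η0 z hz, e0, zero_add], by simp [e0, e1]⟩
  have P1 : P (x • t • a) := by
    have e0 : η (x • t • a) = σ (l w) := by simpa [h.e1] using h.ηyp (one_mem _)
    exact ⟨h.O_ne h.O_p, fun z hz => by rw [h.ηyp hz, e0, add_comm], by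
      rw [e0, h.ξ1 _ h.hx, h.cx, h.σσ, map_one]; ring⟩
  have P2 : ∀ y ∈ Q0 G a, P (t • y • x • t • a) := fun y hy => by
    have o := h.O_t (h.O_z hy h.O_p)
    have f1 := h.hF hy
    refine ⟨h.O_ne o, fun z hz => ?_, ?_⟩
    · rcases h.Q0_cases h.r2 h.sI hz with rfl | ⟨k, hk, rfl⟩
      · simp [h.e1]
      have e1 := h.η1 _ (h.O_z hz o)
      have kk := mul_mem (inv_mem hk) (inv_mem hk)
      have hy' := mul_mem (h.zk' hk) hy
      have o' := h.O_t (h.O_z hy' h.O_p)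
      have f2 := h.hF hy'
      rw [h.tzt' hk, ← mul_smul (k⁻¹ * s * k) y, h.ξz (h.zk' hk) (RO.smul_ne (RO.KK_le kk).1 (h.O_ne o')),
        h.ξd (kA kk) (h.O_ne o'), h.lkk hk, h.ξz hz (h.O_ne o)] at e1
      rw [h.eadd (h.zk' hk) hy, h.e2' hk] at f2
      rw [h.ηtp hy, h.e2 _ hk]
      have k0 := pow_ne_zero 2 (h.co.lne (kA (w := w) hk))
      grind
    · have f2 := congrArg σ f1
      rw [map_mul, map_add, h.σe hy, h.σσ, map_one] at f2
      rw [h.ηtp hy]; grind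
  suffices P b from this.2
  by_cases hO : w • b ≠ b
  swap
  · obtain ⟨z, hz, rfl⟩ := h.ηB hb hO
    exact Pz z hz _ P0
  have ξ0 := (h.ξO hb).1 hO
  obtain ⟨u, v, hu, hv, e1⟩ := conj_dec h.σσ (w := σ (l w)) (by rw [h.σσ]; exact h.wn.symm) (ξ b)⁻¹
  by_cases v0 : v = 0
  · have : σ (ξ b) = ξ b := by
      rw [← inv_inv (ξ b), e1, v0, zero_mul, add_zero, map_inv₀, hu]
    obtain ⟨k, hk, e2⟩ := ((h.fix _).1 this).resolve_left ξ0
    obtain ⟨z, hz, rfl⟩ := h.row hb (Pk k hk _ P1).1 (by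
      rw [h.ξd (kA hk) P1.1, h.ξ1 _ h.hx, h.cx, e2, mul_one])
    exact Pz z hz _ (Pk k hk _ P1)
  · obtain ⟨k, hk, e2⟩ := ((h.fix v⁻¹).1 (by rw [map_inv₀, hv])).resolve_left (inv_ne_zero v0)
    obtain ⟨y, hy, e3⟩ := h.esurj (u := u / v) (by rw [map_div₀, hu, hv])
    have f1 := h.hF hy
    obtain ⟨z, hz, rfl⟩ := h.row hb (Pk k hk _ (P2 y hy)).1 (by
      rw [h.ξd (kA hk) (P2 y hy).1, e2]
      rw [e3] at f1
      grind)
    exact Pz z hz _ (Pk k hk _ (P2 y hy))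

theorem ηz (h : U3 a t Q s w x σ c l e ξ η) {z : G} (hz : z ∈ Q0 G a) {b : Ω} (hb : b ≠ a) :
    η (z • b) = η b + e z := (h.prop hb).1 z hz

theorem ηq (h : U3 a t Q s w x σ c l e ξ η) {y : G} (hy : y ∈ Q) {b : Ω} (hb : b ≠ a) :
    η (y • b) = η b + η (y • t • a) + (l w + σ (l w)) * (σ (c y) * ξ b) := by
  choose X hX eX using h.co.surj
  let γ : G → G → E := fun y y' => η ((y * y') • t • a) + η (y • t • a) + η (y' • t • a) +
    (l w + σ (l w)) * (σ (c y) * c y')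
  have na : ∀ y ∈ Q, y • t • a ≠ a := fun y hy => RO.smul_ne (h.le hy) h.ta
  have γΓ : ∀ y ∈ Q, ∀ y' ∈ Q, γ y y' = γ (X (c y)) (X (c y')) := fun y hy y' hy' => by
    have h1 := (h.co.eq_iff' hy (hX _)).1 (eX _).symm
    have h2 := (h.co.eq_iff' hy' (hX _)).1 (eX _).symm
    have e1 := h.ηz h1 (na _ (hX (c y)))
    have e2 := h.ηz h2 (na _ (hX (c y')))
    have e3 := h.ηz (mul_mem h1 h2) (na _ (mul_mem (hX (c y)) (hX (c y'))))
    rw [← mul_smul, inv_mul_cancel_right] at e1 e2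
    rw [← mul_smul, h.eadd h1 h2, mul_assoc _ (y' * _), ← mul_assoc (y' * _), ← h.sze.comm h2 (hX _),
      show y * (X (c y))⁻¹ * (X (c y) * (y' * (X (c y'))⁻¹) * X (c y')) = y * y' by group] at e3
    simp only [γ, eX]
    rw [e1, e2, e3]; grind
  have σw := h.σw
  have w0 := h.co.lne (wA (w := w))
  have cj : ∀ d ∈ KK a t ⊔ zpowers w, ∀ μ : E, (∀ b, b ≠ a → η (d • b) = μ * η b) → σ (l d) * l d = μ →
      ∀ u v, γ (X (l d * u)) (X (l d * v)) = μ * γ (X u) (X v) := fun d hd μ h1 h2 u v => by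
    have dD := h.AD hd
    have := γΓ _ (h.conj_Q dD.1 (hX u)) _ (h.conj_Q dD.1 (hX v))
    rw [h.co.conj _ hd _ (hX u), h.co.conj _ hd _ (hX v), eX, eX] at this
    rw [← this]
    simp only [γ]
    rw [conj_mul, RO.smul_ta dD, RO.smul_ta dD, RO.smul_ta dD, h1 _ (na _ (hX u)), h1 _ (na _ (hX v)),
      h1 _ (na _ (mul_mem (hX u) (hX v))), h.co.conj _ hd _ (hX u), h.co.conj _ hd _ (hX v), map_mul, ← h2]
    ring
  have hw : ∀ u v, γ (X (l w * u)) (X (l w * v)) = γ (X u) (X v) := fun u v => by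
    rw [cj w wA 1 (fun b _ => by rw [h.ηw, one_mul]) σw, one_mul]
  have := coc_zero h.σσ σw h.wn h.sqrt (fun u v => γ (X u) (X v)) (fun u v r => by
      have e1 := γΓ _ (mul_mem (hX u) (hX v)) _ (hX r)
      have e2 := γΓ _ (hX u) _ (mul_mem (hX v) (hX r))
      rw [h.co.add _ (hX _) _ (hX _), eX, eX, eX] at e1 e2
      rw [← e1, ← e2]
      simp only [γ, mul_assoc, h.co.add _ (hX _) _ (hX _), map_add]
      grind)
    (fun κ hκ u v => by
      rcases (h.fix κ).1 hκ with rfl | ⟨k, hk, rfl⟩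
      · have := γΓ 1 (one_mem _) 1 (one_mem _)
        rw [h.co.one] at this
        have e0 : η (t • a) = 0 := by simpa [h.e1] using h.η0 1 (one_mem _)
        simp only [zero_mul]
        rw [← this]; simp [γ, e0, h.co.one]
      · exact cj k (kA hk) _ (fun b hb => h.ηk hk hb) (by rw [hκ, pow_two]) u v)
    hw (by
      have := γΓ _ h.hx _ h.hx
      rw [h.cx] at this
      rw [← this]
      simp only [γ]
      rw [h.η0 _ h.z0, h.ez0, h.cx, map_one]; grind)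
    (fun u hu hne => by
      obtain ⟨y, hy, rfl⟩ := h.esurj hu
      rcases h.Q0_cases h.r2 h.sI (mul_mem hy h.z0) with e1 | ⟨k, hk, e1⟩
      · rw [eq_inv_of_mul_eq_one_left e1, inv_of_sq (h.sze.sq h.z0), h.ez0] at hne
        exact absurd rfl hne
      have ey : y = k⁻¹⁻¹ * s * k⁻¹ * (x * x) := by rw [inv_inv, ← e1, mul_assoc, h.sze.sq h.z0, mul_one]
      have e2 := h.pt h.main1.1 (inv_mem hk)
      rw [← ey, show w ^ 3 * w⁻¹ = w * w by rw [pow_three']; group] at e2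
      have o := h.O_ne (h.O_t (h.O_z hy h.O_p))
      have ww := mul_mem (wA (a := a) (t := t) (w := w)) wA
      have o' := RO.smul_ne (h.AD ww).1 o
      obtain ⟨y', hy', e3⟩ := h.ex_q o'
      have hg := h.conj_Q h.hw.1.1 (inv_mem h.hx)
      have f1 := h.hF hy
      have e4 : c y' = l w * (l w * ξ (t • y • x • t • a)) := by
        rw [← h.ξ1 _ hy', e3, h.ξd ww o, h.co.lmul wA wA, mul_assoc]
      have e5 := γΓ _ hg _ hy'
      rw [h.cg, e4] at e5
      have e6 := hw 1 (l w * ξ (t • y • x • t • a))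
      rw [mul_one, ← e5] at e6
      rw [div_eq_mul_inv, ← eq_inv_of_mul_eq_one_left f1, ← e6]
      have hk' := h.zk (inv_mem hk)
      have e7 := h.ξq hg o'
      rw [← e2, h.cg, h.ξd ww o, h.co.lmul wA wA] at e7
      simp only [γ]
      rw [mul_smul, e3, ← e2, h.ηtp hk', e7, RO.smul_ta h.hw.1, h.ηw, h.xi, mul_smul _ x, h.ηyp h.z0, h.ez0,
        mul_smul w w, h.ηw, h.ηw, h.ηtp hy, ← h.xi, h.cg, e4]
      clear cj γΓ hw e5 e6
      grind) (c y) (ξ b)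
  obtain ⟨y', hy', rfl⟩ := h.ex_q hb
  rw [h.ξ1 _ hy', ← γΓ _ hy _ hy'] at this
  simp only [γ] at this
  rw [← mul_smul, h.ξ1 _ hy']; grind

theorem ηt (h : U3 a t Q s w x σ c l e ξ η) {b : Ω} (hb : b ≠ a) (hb' : b ≠ t • a) :
    η (t • b) * η b = 1 ∧ η b * ξ (t • b) = ξ b := by
  by_cases hO : w • b ≠ b
  · have e1 := h.η1 _ hO
    have e2 := h.η1 _ (h.O_t hO)
    rw [smul_smul, h.tt, one_smul] at e2
    refine ⟨mul_right_cancel₀ (h.ξt hO) ?_, e1⟩
    rw [mul_assoc, e1, e2, one_mul]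
  obtain ⟨z, hz, rfl⟩ := h.ηB hb hO
  rcases h.Q0_cases h.r2 h.sI hz with rfl | ⟨k, hk, rfl⟩
  · exact absurd (one_smul _ _) hb'
  have kk := mul_mem (inv_mem hk) (inv_mem hk)
  have e1 : t • (k * s * k⁻¹) • t • a = (k⁻¹ * s * k) • t • a := by
    rw [h.tzt' hk, show (k⁻¹ * s * k) • a = a from h.le (h.Q0_le (h.zk' hk)),
      show (k⁻¹ * k⁻¹) • t • a = t • a from (RO.KK_le kk).2]
  rw [e1, h.η0 _ hz, h.η0 _ (h.zk' hk), h.e2 _ hk, h.e2' hk, h.ξ1 _ (h.Q0_le hz), h.ξ1 _ (h.Q0_le (h.zk' hk)),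
    h.co.zero hz, h.co.zero (h.zk' hk), mul_zero]
  exact ⟨inv_mul_cancel₀ (pow_ne_zero _ (h.co.lne (kA hk))), rfl⟩

theorem ηta (h : U3 a t Q s w x σ c l e ξ η) : η (t • a) = 0 ∧ ξ (t • a) = 0 :=
  ⟨by simpa [h.e1] using h.η0 1 (one_mem _), by simpa [h.co.one] using h.ξ1 1 (one_mem _)⟩

theorem pinj (h : U3 a t Q s w x σ c l e ξ η) {b b' : Ω} (hb : b ≠ a) (hb' : b' ≠ a) (h1 : ξ b = ξ b')
    (h2 : η b = η b') : b = b' := by
  obtain ⟨z, hz, rfl⟩ := h.row hb hb' h1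
  rw [h.ηz hz hb', add_eq_left, ← h.e1] at h2
  rw [h.einj hz (one_mem _) h2, one_smul]

theorem psurj (h : U3 a t Q s w x σ c l e ξ η) {u v : E} (he : v + σ v = (l w + σ (l w)) * (u * σ u)) :
    ∃ b, b ≠ a ∧ ξ b = u ∧ η b = v := by
  obtain ⟨y, hy, rfl⟩ := h.co.surj u
  have na : y • t • a ≠ a := RO.smul_ne (h.le hy) h.ta
  have := (h.prop na).2
  rw [h.ξ1 _ hy] at this
  obtain ⟨z, hz, e1⟩ := h.esurj (u := η (y • t • a) + v) (by rw [map_add]; grind)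
  exact ⟨z • y • t • a, RO.smul_ne (h.le (h.Q0_le hz)) na, by rw [h.ξz hz na, h.ξ1 _ hy],
    by rw [h.ηz hz na, e1]; grind⟩

end U3

theorem C3.exists_U3 [FaithfulSMul G Ω] (h : C3 a t Q) {w x : G} (hw : w ∈ D ⊓ C[Q0 G a]) (w1 : w ≠ 1)
    (hx : x ∈ Q) (hx0 : x ∉ Q0 G a) (e0 : t • x • t • a = w • (x * x) • x • t • a) {n : ℕ} (hn : o[Q0 G a] = 2 ^ n)
    {E : Type*} [Field E] [Finite E] [CharP E 2] (hE : Nat.card E = (2 ^ n) ^ 2) :
    ∃ (s : G) (c l e : G → E) (ξ η : Ω → E), U3 a t Q s w x (iterateFrobenius E 2 n) c l e ξ η := by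
  classical
  have hc := h.cent_W hw w1
  obtain ⟨s, hs, es⟩ := h.str hw hc
  obtain ⟨c0, l, co0⟩ := h.exists_E hw hc (E := E) (by rw [hE, hn])
  have c0x : c0 x ≠ 0 := fun e => hx0 ((co0.ker x hx).1 e)
  have co := co0.scale (inv_ne_zero c0x)
  set c : G → E := fun y => (c0 x)⁻¹ * c0 y with hcdef
  have cx : c x = 1 := inv_mul_cancel₀ c0x
  clear_value c
  have kA : ∀ {k}, k ∈ KK a t → k ∈ KK a t ⊔ zpowers w := fun hk => mem_sup_left hk
  have wA : w ∈ KK a t ⊔ zpowers w := mem_sup_right (mem_zpowers w)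
  have σd : ∀ u : E, iterateFrobenius E 2 n u = u ^ 2 ^ n := fun u => iterateFrobenius_def ..
  haveI := Fintype.ofFinite E
  have σσ : ∀ u : E, iterateFrobenius E 2 n (iterateFrobenius E 2 n u) = u := fun u => by
    rw [σd, σd, ← pow_mul, ← pow_two, ← hE, Nat.card_eq_fintype_card, FiniteField.pow_card]
  have arg : ∀ v ∈ zpowers w, ∀ k ∈ KK a t, l k = l v → k = 1 := fun v hv k hk e => by
    have hv' : v ∈ D ⊓ C[Q0 G a] := (zpowers_le.2 hw) hv
    refine h.sq_arg hv' hk hx hx0 ?_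
    rw [← co.eq_iff (h.conj_Q (RO.KK_le hk).1 hx) (h.conj_Q hv'.1.1 hx), co.conj _ (kA hk) _ hx,
      co.conj _ (mem_sup_right hv) _ hx, e]
  have linj : ∀ k ∈ KK a t, ∀ m ∈ KK a t, l k = l m → k = m := fun k hk m hm he => by
    have hkm := mul_mem (inv_mem hm) hk
    have := arg 1 (one_mem _) _ hkm (by
      rw [co.lmul (kA (inv_mem hm)) (kA hk), co.linv (kA hm), he, inv_mul_cancel₀ (co.lne (kA hm)), co.lone])
    exact (inv_mul_eq_one.1 this).symm
  have cK := h.card_KK h.r2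
  have fix : ∀ u : E, iterateFrobenius E 2 n u = u ↔ u = 0 ∨ ∃ k ∈ KK a t, l k = u := by
    have h1 : ∀ u : E, (u = 0 ∨ ∃ k ∈ KK a t, l k = u) → iterateFrobenius E 2 n u = u := by
      rintro u (rfl | ⟨k, hk, rfl⟩)
      · exact map_zero _
      · rw [σd, ← hn, ← cK, pow_succ, ← co.lpow (kA hk), show k ^ o[KK a t] = 1 from
          congrArg Subtype.val (pow_card_eq_one' (x := (⟨k, hk⟩ : KK a t))), co.lone, one_mul]
    let f : Option (KK a t) → E := fun o => o.elim 0 fun k => l k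
    have fi : Injective f := by
      rintro (_ | k) (_ | m) e
      · rfl
      · exact absurd e.symm (co.lne (kA m.2))
      · exact absurd e (co.lne (kA k.2))
      · exact congrArg some (Subtype.ext (linj _ k.2 _ m.2 e))
    have q4 := h.four_le
    have hS : Set.range f = {u | u ^ 2 ^ n = u} := Set.eq_of_subset_of_ncard_le (by
      rintro _ ⟨_ | k, rfl⟩
      · exact h1 _ (.inl rfl)
      · exact h1 _ (.inr ⟨k, k.2, rfl⟩)) (by
      rw [Set.ncard_range_of_injective fi, Finite.card_option, cK, hn]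
      have ne := FiniteField.X_pow_card_sub_X_ne_zero E (p := 2 ^ n) (by omega)
      have : {u : E | u ^ 2 ^ n = u} = ((Polynomial.X ^ 2 ^ n - Polynomial.X : Polynomial E).roots.toFinset : Set E) := by
        ext u; simp [ne, sub_eq_zero]
      rw [this, Set.ncard_coe_finset]
      refine (Multiset.toFinset_card_le _).trans ((Polynomial.card_roots' _).trans ?_)
      rw [FiniteField.X_pow_card_sub_X_natDegree_eq E (by omega)])
    refine fun u => ⟨fun hu => ?_, h1 u⟩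
    obtain ⟨_ | k, rfl⟩ : u ∈ Set.range f := hS ▸ hu
    · exact .inl rfl
    · exact .inr ⟨k, k.2, rfl⟩
  have w0 := co.lne wA
  have σw : iterateFrobenius E 2 n (l w) * l w = 1 := by
    obtain ⟨k, hk, e⟩ := ((fix (iterateFrobenius E 2 n (l w) * l w)).1 (by rw [map_mul, σσ, mul_comm])).resolve_left
      (mul_ne_zero ((map_ne_zero _).2 w0) w0)
    rw [← e, arg _ (npow_mem_zpowers w (2 ^ n + 1)) k hk (by rw [e, co.lpow wA, σd, pow_succ]), co.lone]
  have wn : iterateFrobenius E 2 n (l w) ≠ l w := fun e => by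
    obtain ⟨k, hk, e⟩ := ((fix _).1 e).resolve_left w0
    rw [arg w (mem_zpowers w) k hk e, co.lone] at e
    obtain ⟨z, hz, hz'⟩ := h.fixed_lift h.r2 hw.1 (x := x) (by
      rw [← co.eq_iff hx (h.conj_Q hw.1.1 hx), co.conj _ wA _ hx, ← e, one_mul])
    have : x * z ∈ Q0 G a := hc ▸ mem_inf.2 ⟨mul_mem hx (h.Q0_le hz), hz'⟩
    exact hx0 ((mul_mem_cancel_right hz).1 this)
  let qb : Ω → G := fun b => if hb : ∃ y ∈ Q, y • t • a = b then hb.choose else 1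
  have qb1 : ∀ y ∈ Q, qb (y • t • a) = y := fun y hy => by
    have hb : ∃ y' ∈ Q, y' • t • a = y • t • a := ⟨y, hy, rfl⟩
    simp only [qb, dif_pos hb]
    exact h.q_inj hb.choose_spec.1 hy h.ta hb.choose_spec.2
  let e : G → E := fun z => if hz : ∃ k ∈ KK a t, k * s * k⁻¹ = z then l hz.choose ^ 2 else 0
  let ξ : Ω → E := fun b => c (qb b)
  have ξ1 : ∀ y ∈ Q, ξ (y • t • a) = c y := fun y hy => by simp only [ξ, qb1 y hy]
  have nf : ∀ y ∈ Q, (w • y • t • a ≠ y • t • a ↔ y ∉ Q0 G a) := fun y hy => by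
    rw [Ne, h.fix_iff hw.1 hy, ← hc, mem_inf, and_iff_right hy]
  refine ⟨s, c, l, e, ξ, fun b => if w • b = b then e (qb b) else ξ b / ξ (t • b), h, hs, es, hw,
    fun v hv v1 => h.cent_W hv v1, w1, hx, hx0, e0, co, cx, σσ, fix, σw, wn, ξ1, ?_, fun k hk => ?_,
    fun z hz => ?_, fun b hb => ?_⟩
  · simp only [e]
    rw [dif_neg]
    rintro ⟨k, -, e⟩
    exact hs.2.1 (conj_eq_one_iff.1 e)
  · have hz : ∃ m ∈ KK a t, m * s * m⁻¹ = k * s * k⁻¹ := ⟨k, hk, rfl⟩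
    simp only [e, dif_pos hz]
    have := h.K_inj hs ((h.mem_KK h.r2).1 (inv_mem hz.choose_spec.1)) ((h.mem_KK h.r2).1 (inv_mem hk))
      (by simpa using hz.choose_spec.2)
    rw [inv_inj.1 this]
  · simp only [if_pos (not_not.1 (mt (nf z (h.Q0_le hz)).1 (not_not.2 hz))), qb1 z (h.Q0_le hz)]
  · simp only [if_neg hb]
    have o := U3.O_smul (h.W_tt hw) hb
    obtain ⟨y, hy, e1⟩ := h.ex_q (b := t • b) (fun e => o (by rw [e]; exact hw.1.1))
    refine div_mul_cancel₀ _ ?_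
    rw [← e1] at o ⊢
    rw [ξ1 y hy, Ne, co.ker y hy]
    exact (nf y hy).1 o

end CfsgRO
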