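import Cfsg.Agent.H3.RO7
import Cfsg.Agent.S0780

/-! Split rank one set-up with `|Q| = q ^ 3`: identification with `PSU₃(q)`. -/

set_option autoImplicit false
open Subgroup Cfsg CfsgH2 CfsgH1 CfsgH3 Function MulAction
open scoped commutatorElement IsMulCommutative Matrix

namespace CfsgRO

theorem graph_iso {G S : Type*} [Group G] [Group S] (R : Subgroup (G × S)) (Z : Subgroup S) [Z.Normal]
    (h1 : ∀ g, ∃ s, (g, s) ∈ R) (h2 : ∀ s, ∃ g, (g, s) ∈ R) (h3 : ∀ p ∈ R, p.1 = 1 ↔ p.2 ∈ Z) :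
    Nonempty (G ≃* S ⧸ Z) := by
  let f1 : R →* G := (MonoidHom.fst G S).comp R.subtype
  let f2 : R →* S ⧸ Z := (QuotientGroup.mk' Z).comp ((MonoidHom.snd G S).comp R.subtype)
  have s1 : Surjective f1 := fun g => by obtain ⟨s, hs⟩ := h1 g; exact ⟨⟨_, hs⟩, rfl⟩
  have s2 : Surjective f2 := fun y => by
    obtain ⟨s, rfl⟩ := QuotientGroup.mk'_surjective Z y
    obtain ⟨g, hg⟩ := h2 s; exact ⟨⟨_, hg⟩, rfl⟩
  have e : f1.ker = f2.ker := by
    ext p
    rw [MonoidHom.mem_ker, MonoidHom.mem_ker]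
    exact (h3 p.1 p.2).trans (QuotientGroup.eq_one_iff _).symm
  exact ⟨(QuotientGroup.quotientKerEquivOfSurjective f1 s1).symm.trans
    ((QuotientGroup.quotientMulEquivOfEq e).trans (QuotientGroup.quotientKerEquivOfSurjective f2 s2))⟩

section su
variable {E : Type*} [Field E] [CharP E 2] {σ : E →+* E} {q : ℕ} {α : E}

/-- the hyperbolic form -/
def JF (σ : E →+* E) (u v : Fin 3 → E) : E := u 0 * σ (v 2) + u 1 * σ (v 1) + u 2 * σ (v 0)

def PM (α : E) : Matrix (Fin 3) (Fin 3) E := !![1, 0, α; 1, 0, α + 1; 0, 1, 0]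

def PI (α : E) : Matrix (Fin 3) (Fin 3) E := !![α + 1, α, 0; 0, 0, 1; 1, 1, 0]

theorem PM_PI : PM α * PI α = 1 := by
  ext i j; fin_cases i <;> fin_cases j <;> simp [PM, PI, Matrix.mul_apply, Fin.sum_univ_three] <;> grind

theorem PI_PM : PI α * PM α = 1 := mul_eq_one_comm.1 PM_PI

theorem herm_PM (hσ : ∀ u, σ u = u ^ q) (hα : α + σ α = 1) (u v : Fin 3 → E) :
    hermForm 3 E q (PM α *ᵥ u) (PM α *ᵥ v) = JF σ u v := by
  simp only [hermForm, ← hσ, Fin.sum_univ_three, JF]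
  simp [PM, Matrix.mulVec, dotProduct, Fin.sum_univ_three]
  grind

/-- an element of `SU` in hyperbolic coordinates -/
def mm (α : E) (A : SU 3 E q) : Matrix (Fin 3) (Fin 3) E := PI α * A.1.1 * PM α

theorem mm_mul (A B : SU 3 E q) : mm α (A * B) = mm α A * mm α B := by
  simp only [mm, Subgroup.coe_mul, Matrix.SpecialLinearGroup.coe_mul, mul_assoc]
  rw [← mul_assoc (PM α), PM_PI, one_mul]

theorem mm_one : mm α (1 : SU 3 E q) = 1 := by
  simp [mm, PI_PM]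

theorem PM_mm (A : SU 3 E q) : PM α * mm α A = A.1.1 * PM α := by
  rw [mm, ← mul_assoc, ← mul_assoc, PM_PI, one_mul]

theorem mm_inj {A B : SU 3 E q} (h : ∀ u, mm α A *ᵥ u = mm α B *ᵥ u) : A = B := by
  have h1 : mm α A = mm α B := Matrix.toLin'.injective (LinearMap.ext h)
  have h2 : A.1.1 * PM α = B.1.1 * PM α := by rw [← PM_mm, ← PM_mm, h1]
  refine Subtype.ext (Subtype.ext ?_)
  rw [← mul_one A.1.1, ← PM_PI (α := α), ← mul_assoc, h2, mul_assoc, PM_PI, mul_one]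

theorem mm_J (hσ : ∀ u, σ u = u ^ q) (hα : α + σ α = 1) (A : SU 3 E q) (u v : Fin 3 → E) :
    JF σ (mm α A *ᵥ u) (mm α A *ᵥ v) = JF σ u v := by
  rw [← herm_PM hσ hα, ← herm_PM hσ hα, Matrix.mulVec_mulVec, Matrix.mulVec_mulVec, PM_mm,
    ← Matrix.mulVec_mulVec, ← Matrix.mulVec_mulVec]
  exact A.2 _ _

theorem exists_mm (hσ : ∀ u, σ u = u ^ q) (hα : α + σ α = 1) (M : Matrix (Fin 3) (Fin 3) E) (h1 : M.det = 1)
    (h2 : ∀ u v, JF σ (M *ᵥ u) (M *ᵥ v) = JF σ u v) : ∃ A : SU 3 E q, mm α A = M := by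
  refine ⟨⟨⟨PM α * M * PI α, ?_⟩, fun u v => ?_⟩, ?_⟩
  · rw [Matrix.det_mul, Matrix.det_mul, h1, mul_one, ← Matrix.det_mul, PM_PI, Matrix.det_one]
  · change hermForm 3 E q ((PM α * M * PI α) *ᵥ u) ((PM α * M * PI α) *ᵥ v) = _
    rw [← Matrix.mulVec_mulVec, ← Matrix.mulVec_mulVec, ← Matrix.mulVec_mulVec, ← Matrix.mulVec_mulVec,
      herm_PM hσ hα, h2, ← herm_PM hσ hα, Matrix.mulVec_mulVec, Matrix.mulVec_mulVec, PM_PI,
      Matrix.one_mulVec, Matrix.one_mulVec]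
  · simp only [mm, ← mul_assoc]
    rw [PI_PM, one_mul, mul_assoc, PI_PM, mul_one]

theorem mm_tv (hσ : ∀ u, σ u = u ^ q) (hα : α + σ α = 1) {A : SU 3 E q} {v : Fin 3 → E} {c : E}
    (h : A.1.1 = unitaryTransvection 3 q v c) (u : Fin 3 → E) :
    mm α A *ᵥ u = u + (c * JF σ u (PI α *ᵥ v)) • (PI α *ᵥ v) := by
  rw [mm, h, ← Matrix.mulVec_mulVec, ← Matrix.mulVec_mulVec, CfsgH5.unitaryTransvection_mulVec,
    Matrix.mulVec_add, Matrix.mulVec_smul, Matrix.mulVec_mulVec, PI_PM, Matrix.one_mulVec, ← herm_PM hσ hα,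
    Matrix.mulVec_mulVec v, PM_PI, Matrix.one_mulVec]

/-- the unipotent matrices -/
def MU (σ : E →+* E) (y z : E) : Matrix (Fin 3) (Fin 3) E := !![1, σ y, z; 0, 1, y; 0, 0, 1]

def MT (E : Type*) [Field E] : Matrix (Fin 3) (Fin 3) E := !![0, 0, 1; 0, 1, 0; 1, 0, 0]

theorem MU_vec (y z : E) (u : Fin 3 → E) :
    MU σ y z *ᵥ u = ![u 0 + σ y * u 1 + z * u 2, u 1 + y * u 2, u 2] := by
  ext i; fin_cases i <;> simp [MU, Matrix.mulVec, dotProduct, Fin.sum_univ_three]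

theorem MT_vec (u : Fin 3 → E) : MT E *ᵥ u = ![u 2, u 1, u 0] := by
  ext i; fin_cases i <;> simp [MT, Matrix.mulVec, dotProduct, Fin.sum_univ_three]

theorem exists_MU (hσ : ∀ u, σ u = u ^ q) (hα : α + σ α = 1) (σσ : ∀ u, σ (σ u) = u) {y z : E}
    (h : z + σ z = y * σ y) : ∃ A : SU 3 E q, mm α A = MU σ y z :=
  exists_mm hσ hα _ (by simp [MU, Matrix.det_fin_three]) fun u v => by
    simp [MU_vec, JF, σσ]; grind

theorem exists_MT (hσ : ∀ u, σ u = u ^ q) (hα : α + σ α = 1) : ∃ A : SU 3 E q, mm α A = MT E :=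
  exists_mm hσ hα _ (by simp [MT, Matrix.det_fin_three]; grind) fun u v => by
    simp [MT_vec, JF]; ring

theorem vec3_eq {x y z x' y' z' : E} : (![x, y, z] : Fin 3 → E) = ![x', y', z'] ↔ x = x' ∧ y = y' ∧ z = z' := by
  simp

theorem vec3_eta (u : Fin 3 → E) : u = ![u 0, u 1, u 2] := by
  ext i; fin_cases i <;> rfl

end su

variable {G Ω : Type*} [Group G] [Finite G] [MulAction G Ω] {a : Ω} {t : G} {Q : Subgroup G}

local notation "H" => stabilizer G a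
local notation "D" => DD a t

theorem U3.iso [FaithfulSMul G Ω] {s w x : G} {E : Type*} [Field E] [Fintype E] [CharP E 2] {σ : E →+* E}
    {c l e : G → E} {ξ η : Ω → E} (h : U3 a t Q s w x σ c l e ξ η) {q : ℕ} (hσ : ∀ u, σ u = u ^ q)
    (hE : Fintype.card E = q ^ 2) (q2 : q ≠ 2) (gen : Q ⊔ zpowers t = ⊤) : Nonempty (G ≃* PSU 3 E q) := by
  classical
  have β0 : l w + σ (l w) ≠ 0 := fun e => h.wn (CharTwo.add_eq_zero.1 e).symm
  obtain ⟨ρ, σρ, ρρ⟩ := h.sqrt (l w + σ (l w)) (by rw [map_add, h.σσ, add_comm])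
  have ρ0 : ρ ≠ 0 := fun e => β0 (by rw [← ρρ, e, mul_zero])
  obtain ⟨α, hα⟩ : ∃ α : E, α + σ α = 1 := ⟨l w / (l w + σ (l w)), by
    rw [map_div₀, map_add, h.σσ, add_comm (σ _), ← add_div, div_self β0]⟩
  let V : Ω → Fin 3 → E := fun b => if b = a then ![1, 0, 0] else ![η b, ρ * ξ b, 1]
  have Va : V a = ![1, 0, 0] := if_pos rfl
  have Vb : ∀ b, b ≠ a → V b = ![η b, ρ * ξ b, 1] := fun b hb => if_neg hb
  have Vi : ∀ b b' (μ : E), V b = μ • V b' → b = b' := fun b b' μ he => by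
    by_cases hb : b = a <;> by_cases hb' : b' = a
    · rw [hb, hb']
    · rw [hb, Va, Vb _ hb'] at he; simp at he; grind
    · rw [hb', Va, Vb _ hb] at he; simp at he
    · rw [Vb _ hb, Vb _ hb'] at he
      simp at he
      obtain ⟨e1, e2, rfl⟩ := he
      exact h.pinj hb hb' (by grind) (by grind)
  let R : Subgroup (G × SU 3 E q) :=
    { carrier := {p | ∀ b, ∃ μ : E, μ ≠ 0 ∧ V (p.1 • b) = μ • (mm α p.2 *ᵥ V b)}
      one_mem' := fun b => ⟨1, one_ne_zero, by simp [mm_one]⟩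
      mul_mem' := fun {p p'} h1 h2 b => by
        obtain ⟨μ, m0, e1⟩ := h1 (p'.1 • b)
        obtain ⟨ν, n0, e2⟩ := h2 b
        refine ⟨μ * ν, mul_ne_zero m0 n0, ?_⟩
        rw [Prod.fst_mul, Prod.snd_mul, mul_smul, e1, e2, mm_mul, Matrix.mulVec_smul, Matrix.mulVec_mulVec,
          mul_smul]
      inv_mem' := fun {p} h1 b => by
        obtain ⟨μ, m0, e1⟩ := h1 (p.1⁻¹ • b)
        refine ⟨μ⁻¹, inv_ne_zero m0, ?_⟩
        rw [smul_inv_smul] at e1
        rw [e1, Matrix.mulVec_smul, Matrix.mulVec_mulVec, ← mm_mul, Prod.snd_inv, inv_mul_cancel, mm_one,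
          Matrix.one_mulVec, inv_smul_smul₀ m0, Prod.fst_inv] }
  have RQ : ∀ y ∈ Q, ∃ A, (y, A) ∈ R ∧ mm α A = MU σ (ρ * c y) (η (y • t • a)) := fun y hy => by
    have na : y • t • a ≠ a := RO.smul_ne (h.le hy) h.ta
    have := (h.prop na).2
    rw [h.ξ1 _ hy] at this
    obtain ⟨A, hA⟩ := exists_MU hσ hα h.σσ (y := ρ * c y) (z := η (y • t • a)) (by
      rw [this, map_mul, σρ, ← ρρ]; ring)
    refine ⟨A, fun b => ⟨1, one_ne_zero, ?_⟩, hA⟩
    rw [one_smul, hA, MU_vec]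
    by_cases hb : b = a
    · rw [hb, show y • a = a from h.le hy, Va]; simp
    · rw [Vb _ hb, Vb _ (RO.smul_ne (h.le hy) hb), h.ηq hy hb, h.ξq hy hb, ← ρρ]
      simp [σρ]; constructor <;> ring
  have Rt : ∃ A, (t, A) ∈ R := by
    obtain ⟨A, hA⟩ := exists_MT hσ hα
    refine ⟨A, fun b => ?_⟩
    rw [hA, MT_vec]
    by_cases hb : b = a
    · exact ⟨1, one_ne_zero, by rw [hb, Va, Vb _ h.ta, h.ηta.1, h.ηta.2]; simp⟩
    by_cases hb' : b = t • a
    · exact ⟨1, one_ne_zero, by rw [hb', h.tta, Va, Vb _ h.ta, h.ηta.1, h.ηta.2]; simp⟩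
    obtain ⟨e1, e2⟩ := h.ηt hb hb'
    refine ⟨η (t • b), left_ne_zero_of_mul_eq_one e1, ?_⟩
    rw [Vb _ hb, Vb _ (fun e => hb' (by rw [← e, smul_smul, h.tt, one_smul]))]
    simp [e1]; grind
  have R1 : ∀ g, ∃ A, (g, A) ∈ R := fun g => by
    have : ⊤ ≤ R.map (MonoidHom.fst _ _) := gen ▸ sup_le (fun y hy => by
      obtain ⟨A, hA, -⟩ := RQ y hy; exact ⟨_, hA, rfl⟩) (zpowers_le.2 (by
      obtain ⟨A, hA⟩ := Rt; exact ⟨_, hA, rfl⟩))
    obtain ⟨p, hp, rfl⟩ := this (mem_top g)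
    exact ⟨p.2, hp⟩
  have R2 : ∀ A, ∃ g, (g, A) ∈ R := fun A => by
    have : ⊤ ≤ R.map (MonoidHom.snd _ _) := by
      rw [← Cfsg.Agent.S0780.result hE 3 le_rfl (fun e => q2 e.2), closure_le]
      rintro A ⟨v, γ, h1, h2⟩
      have h3 := mm_tv hσ hα h2
      have h4 : JF σ (PI α *ᵥ v) (PI α *ᵥ v) = 0 := by
        rw [← herm_PM hσ hα, Matrix.mulVec_mulVec, PM_PI, Matrix.one_mulVec, h1]
      set v' := PI α *ᵥ v
      obtain ⟨b, μ, e1⟩ : ∃ b, ∃ μ : E, v' = μ • V b := by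
        by_cases z0 : v' 2 = 0
        · refine ⟨a, v' 0, ?_⟩
          have : v' 1 = 0 := by
            simp only [JF, z0, map_zero, mul_zero, zero_mul, zero_add, add_zero, mul_eq_zero, map_eq_zero] at h4
            tauto
          rw [Va, vec3_eta v', this, z0]; simp
        · have z1 : σ (v' 2) ≠ 0 := (map_ne_zero σ).2 z0
          obtain ⟨b, hb, e1, e2⟩ := h.psurj (u := v' 1 / (v' 2 * ρ)) (v := v' 0 / v' 2) (by
            rw [map_div₀, map_div₀, map_mul, σρ, ← ρρ]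
            simp only [JF] at h4
            field_simp; grind)
          refine ⟨b, v' 2, ?_⟩
          rw [Vb _ hb, e1, e2]
          conv_lhs => rw [vec3_eta v']
          simp; constructor <;> field_simp
      obtain ⟨g, rfl⟩ := h.trans b
      obtain ⟨B, hB⟩ := R1 g
      obtain ⟨ν, -, e2⟩ := hB a
      simp only at e2
      rw [e2, smul_smul, Va] at e1
      set κ := μ * ν
      have h5 : ∀ u, mm α A *ᵥ (mm α B *ᵥ u) = mm α B *ᵥ (u + (γ * (κ * σ κ) * u 2) • ![1, 0, 0]) := fun u => by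
        rw [h3, e1, ← Matrix.mulVec_smul, mm_J hσ hα, ← Matrix.mulVec_smul, ← Matrix.mulVec_add, smul_smul]
        congr 3
        simp [JF]; ring
      have h6 := mm_J hσ hα A (mm α B *ᵥ ![0, 0, 1]) (mm α B *ᵥ ![0, 0, 1])
      rw [h5, mm_J hσ hα, mm_J hσ hα] at h6
      obtain ⟨z, hz, e3⟩ := h.esurj (u := γ * (κ * σ κ)) (by
        simp [JF] at h6 ⊢; grind)
      obtain ⟨C, hC, e4⟩ := RQ z (h.Q0_le hz)
      have : A * B = B * C := mm_inj (α := α) fun u => by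
        rw [mm_mul, mm_mul, ← Matrix.mulVec_mulVec, ← Matrix.mulVec_mulVec, h5, e4, MU_vec, h.co.zero hz,
          h.η0 z hz, e3]
        congr 1
        conv_lhs => rw [vec3_eta u]
        simp
      rw [eq_mul_inv_of_mul_eq this]
      exact ⟨_, mul_mem (mul_mem hB hC) (inv_mem hB), rfl⟩
    obtain ⟨p, hp, rfl⟩ := this (mem_top A)
    exact ⟨p.1, hp⟩
  refine graph_iso R _ R1 R2 fun p hp => ⟨fun p1 => ?_, fun hZ => ?_⟩
  · have f : ∀ b, ∃ μ : E, mm α p.2 *ᵥ V b = μ • V b := fun b => by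
      obtain ⟨μ, m0, e1⟩ := hp b
      rw [p1, one_smul] at e1
      exact ⟨μ⁻¹, by rw [eq_inv_smul_iff₀ m0, ← e1]⟩
    obtain ⟨b1, n1, a1, a2⟩ := h.psurj (u := 0) (v := 1) (by simp; grind)
    obtain ⟨b2, n2, a3, a4⟩ := h.psurj (u := 1) (v := l w) (by simp)
    obtain ⟨b3, n3, a5, a6⟩ := h.psurj (u := 1) (v := l w + 1) (by simp; grind)
    obtain ⟨μ1, f1⟩ := f a
    obtain ⟨μ2, f2⟩ := f (t • a)
    obtain ⟨μ3, f3⟩ := f b1
    obtain ⟨μ4, f4⟩ := f b2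
    obtain ⟨μ5, f5⟩ := f b3
    rw [Va] at f1
    rw [Vb _ h.ta, h.ηta.1, h.ηta.2] at f2
    rw [Vb _ n1, a1, a2] at f3
    rw [Vb _ n2, a3, a4] at f4
    rw [Vb _ n3, a5, a6] at f5
    set M := mm α p.2 with hM
    have sc : M = μ1 • (1 : Matrix (Fin 3) (Fin 3) E) := by
      have g1 := congrFun f1
      have g2 := congrFun f2
      have g3 := congrFun f3
      have g4 := congrFun f4
      have g5 := congrFun f5
      simp only [Fin.forall_fin_succ, Matrix.mulVec, dotProduct, Fin.sum_univ_three] at g1 g2 g3 g4 g5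
      simp at g1 g2 g3 g4 g5
      clear_value M
      ext i j
      fin_cases i <;> fin_cases j <;> simp <;> grind
    refine mem_center_iff.2 fun B => mm_inj (α := α) fun u => ?_
    rw [mm_mul, mm_mul, ← hM, sc, Matrix.mul_smul, Matrix.smul_mul, mul_one, one_mul]
  · have cm : ∀ g, g * p.1 = p.1 * g := fun g => by
      obtain ⟨B, hB⟩ := R1 g
      have := mul_mem (mul_mem (mul_mem hB hp) (inv_mem hB)) (inv_mem hp)
      rw [← mul_inv_eq_one, mul_inv_rev, ← mul_assoc]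
      refine eq_of_smul_eq_smul (α := Ω) fun b => ?_
      obtain ⟨μ, -, e1⟩ := this b
      simp only [Prod.snd_mul, Prod.snd_inv, Prod.fst_mul, Prod.fst_inv] at e1
      rw [mem_center_iff.1 hZ B, mul_inv_cancel_right, mul_inv_cancel, mm_one, Matrix.one_mulVec] at e1
      rw [one_smul]; exact Vi _ _ _ e1
    have pH : p.1 ∈ H := h.cent_le (h.I_Q h.sI) h.sI.2.1 (mc1.2 (cm s).symm)
    refine eq_of_smul_eq_smul (α := Ω) fun b => ?_
    obtain ⟨g, rfl⟩ := h.trans b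
    rw [one_smul, ← mul_smul, ← cm, mul_smul, show p.1 • a = a from pH]

theorem C3.iso [FaithfulSMul G Ω] (h : C3 a t Q) (hP : commutator G = ⊤) (hW : D ⊓ C[Q0 G a] ≠ ⊥)
    (gen : Q ⊔ zpowers t = ⊤) : ∃ (F : Type) (_ : Field F) (_ : Fintype F) (n : ℕ), 2 ≤ n ∧
      Fintype.card F = (2 ^ n) ^ 2 ∧ Nonempty (G ≃* PSU 3 F (2 ^ n)) := by
  obtain ⟨w, hw, w1, x, hx, hx0, e0⟩ := h.exists_x0 hP hW
  obtain ⟨n, hn, e⟩ := h.card_Q0 h.r2
  have hE : Nat.card (GaloisField 2 (n * 2)) = (2 ^ n) ^ 2 := by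
    rw [GaloisField.card 2 _ (by omega), pow_mul]
  obtain ⟨s, c, l, e', ξ, η, hU⟩ := h.exists_U3 hw w1 hx hx0 e0 e hE
  haveI := Fintype.ofFinite (GaloisField 2 (n * 2))
  rw [Nat.card_eq_fintype_card] at hE
  have := h.four_le
  exact ⟨_, _, _, n, hn, hE, hU.iso (fun u => iterateFrobenius_def ..) hE (by omega) gen⟩

end CfsgRO
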