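import Cfsg.Agent.H3.RO8

/-! Split rank one set-up: subgroups, quotients and the simple normal subgroup. -/

set_option autoImplicit false
open Subgroup Cfsg CfsgH2 CfsgH1 CfsgH3 Function MulAction
open scoped commutatorElement IsMulCommutative

namespace CfsgRO

/-- the faithful quotient of a permutation representation -/
def Img (G Ω : Type*) [Group G] [MulAction G Ω] := G ⧸ (toPermHom G Ω).ker

namespace Img
variable (G Ω : Type*) [Group G] [MulAction G Ω]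

instance : Group (Img G Ω) := inferInstanceAs (Group (G ⧸ (toPermHom G Ω).ker))

instance [Finite G] : Finite (Img G Ω) := inferInstanceAs (Finite (G ⧸ (toPermHom G Ω).ker))

instance : MulAction (Img G Ω) Ω := MulAction.compHom Ω (QuotientGroup.kerLift (toPermHom G Ω))

/-- the projection -/
def pr : G →* Img G Ω := QuotientGroup.mk' _

theorem pr_smul (g : G) (b : Ω) : pr G Ω g • b = g • b := rfl

theorem pr_surj : Surjective (pr G Ω) := QuotientGroup.mk'_surjective _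

instance : FaithfulSMul (Img G Ω) Ω :=
  ⟨fun h => QuotientGroup.kerLift_injective (toPermHom G Ω) (Equiv.ext h)⟩

end Img

/-- the fixed points of an element -/
structure FixT {G : Type*} (Ω : Type*) [Group G] [MulAction G Ω] (u : G) where
  val : Ω
  fix : u • val = val

theorem FixT.inj {G Ω : Type*} [Group G] [MulAction G Ω] {u : G} : Injective (FixT.val : FixT Ω u → Ω) := by
  rintro ⟨_, _⟩ ⟨_, _⟩ (rfl : _ = _); rfl

instance {G Ω : Type*} [Group G] [MulAction G Ω] (u : G) : MulAction C1[u] (FixT Ω u) where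
  smul g b := ⟨g.1 • b.1, by rw [← mul_smul, ← mc1.1 g.2, mul_smul, b.2]⟩
  one_smul b := FixT.inj (one_smul _ _)
  mul_smul g h b := FixT.inj (mul_smul _ _ _)

theorem r2_of_card {G : Type*} [Group G] [Finite G] {X : Subgroup G} (h : IsElementaryAbelian 2 X)
    (hc : 2 < o[X]) : ∃ x ∈ X, ∃ y ∈ X, x ≠ 1 ∧ y ≠ 1 ∧ x ≠ y ∧ x * x = 1 ∧ y * y = 1 ∧ x * y = y * x := by
  obtain ⟨x, hx, x1⟩ := ne_bot_iff'.1 (show X ≠ ⊥ from fun e => by rw [e, card_bot] at hc; omega)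
  have x2 : x ^ 2 = 1 := h.2 x hx
  obtain ⟨y, hy, hy'⟩ : ∃ y ∈ X, y ∉ zpowers x := by
    by_contra! e
    have := card_le_of_le (show X ≤ zpowers x from e)
    rw [card_zpowers_eq Nat.prime_two x2 x1] at this
    omega
  exact ⟨x, hx, y, hy, x1, fun e => hy' (e ▸ one_mem _), fun e => hy' (e ▸ mem_zpowers _), pow_two x ▸ x2,
    pow_two y ▸ h.2 y hy, comm_of_isMulComm h.1 hx hy⟩

variable {G Ω : Type*} [Group G] [Finite G] [MulAction G Ω] {a : Ω} {t : G} {Q : Subgroup G}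

local notation "H" => stabilizer G a
local notation "D" => DD a t
local notation "K" => invertedBy (DD a t) t
local notation "I" => involutionsIn (SetLike.coe (stabilizer G a))

section transfer
variable {G' Ω' : Type*} [Group G'] [Finite G'] [MulAction G' Ω'] {a' : Ω'} {t' : G'}

theorem RO.pull (h : RO a t Q) {f : G' →* G} (hf : Injective f) {j : Ω' → Ω} (hj : Injective j)
    (he : ∀ g b, j (g • b) = f g • j b) (ha : j a' = a) (ht : f t' = t)
    (hq : ∀ b, b ≠ a' → ∃ y, f y ∈ Q ∧ y • t' • a' = b) (ev : Even o[Q.comap f]) : RO a' t' (Q.comap f) := by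
  have sa : ∀ g b, g • b = b ↔ f g • j b = j b := fun g b => by rw [← he, hj.eq_iff]
  have tt : t' * t' = 1 := hf (by rw [map_mul, ht, h.tt, map_one])
  have ta : t' • a' ≠ a' := fun e => h.ta (by rwa [sa, ht, ha] at e)
  have le : ∀ y, f y ∈ Q → y • a' = a' := fun y hy => (sa _ _).2 (by rw [ha]; exact h.le hy)
  have e1 : ∀ x, ∃ g : G', g • x = a' := fun x => by
    by_cases hx : x = a'
    · exact ⟨1, by rw [hx, one_smul]⟩
    · obtain ⟨y, -, e⟩ := hq x hx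
      exact ⟨t' * y⁻¹, by rw [← e, mul_smul, inv_smul_smul, smul_smul, tt, one_smul]⟩
  have e2 : ∀ x y, x ≠ y → ∃ g : G', g • x = a' ∧ g • y = t' • a' := fun x y ne => by
    obtain ⟨g, hg⟩ := e1 x
    obtain ⟨z, hz, e⟩ := hq (g • y) (fun e => ne ((smul_left_cancel_iff g).1 (hg.trans e.symm)))
    exact ⟨z⁻¹ * g, by rw [mul_smul, hg, inv_smul_eq_iff, le z hz], by rw [mul_smul, ← e, inv_smul_smul]⟩
  have jt : j (t' • a') = t • a := by rw [he, ht, ha]
  refine ⟨fun x y z w h1 h2 => ?_, tt, ta, le, fun g hg => mem_norm_of_conj fun x hx => ?_, ?_, ?_, ev, ?_⟩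
  · obtain ⟨g, g1, g2⟩ := e2 x y h1
    obtain ⟨k, k1, k2⟩ := e2 z w h2
    exact ⟨k⁻¹ * g, by rw [mul_smul, g1, inv_smul_eq_iff, k1], by rw [mul_smul, g2, inv_smul_eq_iff, k2]⟩
  · rw [mem_comap, map_mul, map_mul, map_inv]
    exact h.conj_Q (by have := (sa _ _).1 hg; rwa [ha] at this) hx
  · refine eq_bot_iff.2 fun x hx => mem_bot.2 (hf ?_)
    rw [map_one]
    exact h.eq_one hx.1 (by have := (sa _ _).1 hx.2; rwa [jt] at this)
  · refine le_antisymm (sup_le le inf_le_left) fun g hg => ?_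
    obtain ⟨y, hy, e⟩ := hq (g • t' • a') (RO.smul_ne hg ta)
    rw [show g = y * (y⁻¹ * g) by group]
    exact mul_mem (mem_sup_left hy) (mem_sup_right (mem_inf.2 ⟨mul_mem (inv_mem (show y ∈ stabilizer G' a' from le y hy)) hg,
      by rw [mem_stabilizer_iff, mul_smul, ← e, inv_smul_smul]⟩))
  · rw [← card_map_of_injective hf]
    refine odd_of_le h.od ?_
    rintro _ ⟨g, hg, rfl⟩
    exact ⟨by have := (sa _ _).1 hg.1; rwa [ha] at this, by have := (sa _ _).1 hg.2; rwa [jt] at this⟩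

theorem RO.Q0_pull (h : RO a t Q) (h2 : R2 G) {f : G' →* G} (hf : Injective f) (h' : RO a' t' (Q.comap f))
    (h2' : R2 G') : Q0 G' a' = (Q0 G a).comap f := by
  ext x
  rw [mem_comap, h.mem_Q0 h2, h'.mem_Q0 h2', ← map_mul, map_eq_one_iff f hf]
  exact ⟨fun ⟨e1, e2⟩ => ⟨h.le (h'.inv_mem_Q e1 e2), e2⟩,
    fun ⟨e1, e2⟩ => ⟨h'.le (h.inv_mem_Q e1 (by rw [← map_mul, e2, map_one])), e2⟩⟩

variable [MulAction G' Ω]

theorem RO.push_inj (h : RO a t Q) {f : G →* G'} (he : ∀ g (b : Ω), f g • b = g • b) {x : G} (hx : x ∈ Q)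
    (e : f x = 1) : x = 1 := h.eq_one hx (by rw [← he, e, one_smul])

theorem RO.card_push (h : RO a t Q) {f : G →* G'} (he : ∀ g (b : Ω), f g • b = g • b) {X : Subgroup G}
    (hX : X ≤ Q) : o[X.map f] = o[X] :=
  card_map_of_disjoint f (eq_bot_iff.2 fun _ hx => mem_bot.2 (h.push_inj he (hX hx.2) hx.1))

theorem D_push {f : G →* G'} (hf : Surjective f) (he : ∀ g (b : Ω), f g • b = g • b) :
    DD a (f t) = (D).map f := by
  ext g
  obtain ⟨g, rfl⟩ := hf g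
  constructor
  · exact fun hg => ⟨g, ⟨by simpa [he] using hg.1, by simpa [he] using hg.2⟩, rfl⟩
  · rintro ⟨g', hg', e⟩
    rw [← e]
    exact ⟨by simpa [he] using hg'.1, by simpa [he] using hg'.2⟩

theorem RO.push (h : RO a t Q) {f : G →* G'} (hf : Surjective f) (he : ∀ g (b : Ω), f g • b = g • b) :
    RO a (f t) (Q.map f) := by
  have hH : stabilizer G' a = (H).map f := by
    ext g
    obtain ⟨g, rfl⟩ := hf g
    exact ⟨fun hg => ⟨g, by simpa [he] using hg, rfl⟩, by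
      rintro ⟨g', hg', e⟩; rw [← e]; simpa [he] using hg'⟩
  refine ⟨fun x y z w h1 h2 => ?_, by rw [← map_mul, h.tt, map_one], by rw [he]; exact h.ta,
    hH ▸ map_mono h.le, ?_, ?_, by rw [D_push hf he, ← Subgroup.map_sup, h.sup, hH], by rw [h.card_push he le_rfl]; exact h.ev,
    ?_⟩
  · obtain ⟨g, g1, g2⟩ := h.two x y z w h1 h2
    exact ⟨f g, by rw [he, g1], by rw [he, g2]⟩
  · rw [hH]
    rintro _ ⟨g, hg, rfl⟩
    refine mem_norm_of_conj ?_
    rintro _ ⟨x, hx, rfl⟩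
    exact ⟨_, h.conj_Q hg hx, by simp⟩
  · refine eq_bot_iff.2 ?_
    rintro _ ⟨⟨x, hx, rfl⟩, e⟩
    rw [h.eq_one hx (by simpa [he] using e), map_one]; exact one_mem _
  · rw [D_push hf he]
    exact Odd.of_dvd_nat h.od (card_map_dvd _ _)

theorem RO.Q0_push (h : RO a t Q) (h2 : R2 G) {f : G →* G'} (hf : Surjective f)
    (he : ∀ g (b : Ω), f g • b = g • b) : R2 G' ∧ Q0 G' a = (Q0 G a).map f := by
  have h' := h.push hf he
  have h2' : R2 G' := by
    obtain ⟨s, hs, s', hs', ne⟩ := h.two_I h2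
    refine ⟨f s, f s', fun e => hs.2.1 (h.push_inj he (h.I_Q hs) e), fun e => hs'.2.1 (h.push_inj he (h.I_Q hs') e),
      fun e => ne ?_, by rw [← map_mul, hs.2.2, map_one], by rw [← map_mul, hs'.2.2, map_one],
      by rw [← map_mul, ← map_mul, h.I_comm h2 hs (h.I_Q hs')]⟩
    exact inv_mul_eq_one.1 (h.push_inj he (mul_mem (inv_mem (h.I_Q hs)) (h.I_Q hs')) (by simp [e]))
  refine ⟨h2', ?_⟩
  ext x
  rw [h'.mem_Q0 h2']
  constructor
  · rintro ⟨e1, e2⟩
    obtain ⟨y, hy, rfl⟩ := h'.inv_mem_Q e1 e2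
    exact ⟨y, (h.mem_Q0 h2).2 ⟨h.le hy, h.push_inj he (mul_mem hy hy) (by rw [map_mul, e2])⟩, rfl⟩
  · rintro ⟨y, hy, rfl⟩
    exact ⟨h'.le ⟨y, h.Q0_le hy, rfl⟩, by rw [← map_mul, ((h.mem_Q0 h2).1 hy).2, map_one]⟩

end transfer

namespace RO

theorem sub (h : RO a t Q) {L : Subgroup G} (hQ : Q ≤ L) (ht : t ∈ L) :
    RO a (⟨t, ht⟩ : L) (Q.subgroupOf L) :=
  h.pull L.subtype_injective injective_id (fun _ _ => rfl) rfl rfl
    (fun b hb => by obtain ⟨y, hy, e⟩ := h.ex_q hb; exact ⟨⟨y, hQ hy⟩, hy, e⟩)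
    (by rw [show Q.comap L.subtype = Q.subgroupOf L from rfl, CfsgH2.card_subgroupOf hQ]; exact h.ev)

theorem r2_sub (h : RO a t Q) (h2 : R2 G) {L : Subgroup G} (hQ : Q ≤ L) : R2 L := by
  obtain ⟨s, hs, s', hs', ne⟩ := h.two_I h2
  exact ⟨⟨s, hQ (h.I_Q hs)⟩, ⟨s', hQ (h.I_Q hs')⟩, fun e => hs.2.1 (congrArg Subtype.val e),
    fun e => hs'.2.1 (congrArg Subtype.val e), fun e => ne (congrArg Subtype.val e), Subtype.ext hs.2.2,
    Subtype.ext hs'.2.2, Subtype.ext (h.I_comm h2 hs (h.I_Q hs'))⟩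

theorem K_L0 (h : RO a t Q) {k : G} (hk : k ∈ K) : k ∈ Q ⊔ zpowers t := by
  obtain ⟨s, hs, r, hr, e⟩ := h.exists_str
  obtain ⟨m, hm, rfl, -⟩ := inverted_sqrt h.od hk
  have ht : t ∈ Q ⊔ zpowers t := mem_sup_right (mem_zpowers t)
  have : m * m = (m * r * m⁻¹) * (t * (m⁻¹ * s * m) * t) * (m * r⁻¹ * m⁻¹) * t := by
    calc m * m = m * (m * t) * t := by rw [mul_assoc, mul_assoc, h.tt, mul_one]
      _ = m * r * (r⁻¹ * t * r) * r⁻¹ * m⁻¹ * t := by rw [h.kt hm]; group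
      _ = (m * r * m⁻¹) * ((m * t) * s * (t * m⁻¹)) * (m * r⁻¹ * m⁻¹) * t := by rw [← e]; group
      _ = (m * r * m⁻¹) * ((t * m⁻¹) * s * (m * t)) * (m * r⁻¹ * m⁻¹) * t := by rw [h.kt hm]
      _ = _ := by group
  rw [this]
  exact mul_mem (mul_mem (mul_mem (mem_sup_left (h.conj_Q hm.1.1 hr)) (mul_mem (mul_mem ht
    (mem_sup_left (h.conj_Q' hm.1.1 (h.I_Q hs)))) ht)) (mem_sup_left (h.conj_Q hm.1.1 (inv_mem hr)))) ht

theorem normal_L0 (h : RO a t Q) : (Q ⊔ zpowers t).Normal := by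
  have hH : H ≤ N[Q ⊔ zpowers t] := fun g hg => by
    obtain ⟨x, hx, d, hd, rfl⟩ := h.dec hg
    obtain ⟨k, hk, v, hv, rfl⟩ := h.dec_D hd
    exact mul_mem (le_normalizer (mem_sup_left hx)) (mul_mem (le_normalizer (h.K_L0 hk))
      (mem_norm_sup (h.nQ hv.1.1) (cent_le_norm _ (by rw [cent_zpowers]; exact hv.2))))
  refine normal_of_top_le_norm fun g _ => ?_
  by_cases hg : g ∈ H
  · exact hH hg
  · obtain ⟨x, hx, y, hy, rfl⟩ := h.bru hg
    exact mul_mem (mul_mem (hH hx) (le_normalizer (mem_sup_right (mem_zpowers t)))) (hH (h.le hy))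

theorem odd_L0 (h : RO a t Q) : Odd (Q ⊔ zpowers t).index :=
  Odd.of_dvd_nat h.odd_index_Q (index_dvd_of_le le_sup_left)

theorem gen_L0 (h : RO a t Q) : Q.subgroupOf (Q ⊔ zpowers t) ⊔
    zpowers (⟨t, mem_sup_right (mem_zpowers t)⟩ : ↥(Q ⊔ zpowers t)) = ⊤ := by
  apply map_injective (Q ⊔ zpowers t).subtype_injective
  rw [Subgroup.map_sup, map_subgroupOf_eq_of_le le_sup_left, MonoidHom.map_zpowers, ← MonoidHom.range_eq_map, range_subtype]
  rfl

theorem normal_le_H [FaithfulSMul G Ω] (h : RO a t Q) {N : Subgroup G} [hN : N.Normal] (hl : N ≤ H) : N = ⊥ := by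
  refine eq_bot_iff.2 fun x hx => mem_bot.2 (eq_of_smul_eq_smul (α := Ω) fun b => ?_)
  obtain ⟨g, rfl⟩ := h.trans b
  rw [one_smul]
  exact inv_smul_eq_iff.1 (show g⁻¹ • x • g • a = a by simpa [mul_smul] using hl (hN.conj_mem' x hx g))

theorem le_normal (h : RO a t Q) (h2 : R2 G) {N : Subgroup G} [hN : N.Normal] (he : Even o[N]) :
    Q ⊔ zpowers t ≤ N := by
  obtain ⟨u, hu, ou⟩ := exists_prime_order_mem Nat.prime_two he.two_dvd
  have u2 : u * u = 1 := by rw [← pow_two, ← ou, pow_orderOf_eq_one]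
  have u1 : u ≠ 1 := fun e => by rw [e, orderOf_one] at ou; omega
  obtain ⟨g, hg⟩ := h.inv_fix u1 u2
  obtain ⟨g', hg'⟩ := h.inv_fix h.t_ne h.tt
  obtain ⟨k, -, e⟩ := h.K_trans hg hg'
  have tN : t ∈ N := by
    have := hN.conj_mem' _ (e ▸ hN.conj_mem' _ (hN.conj_mem u hu g) k) g'
    rwa [show g'⁻¹ * (g' * t * g'⁻¹) * g' = t by group] at this
  obtain ⟨k, hk, k1⟩ := h.exists_K h2
  obtain ⟨m, hm, rfl, -⟩ := inverted_sqrt h.od hk
  have kN : m * m ∈ N := by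
    have := mul_mem (hN.conj_mem t tN m) tN
    rwa [mul_assoc m, ← h.kt hm, mul_assoc, mul_assoc, h.tt, mul_one] at this
  refine sup_le (fun y hy => ?_) (zpowers_le.2 tN)
  obtain ⟨x, -, e⟩ := exists_conj_of_fpf (h.nQ hk.1.1) (h.K_fpf hk k1) hy
  have := mul_mem (hN.conj_mem _ kN x) (inv_mem kN)
  rwa [e, mul_inv_cancel_right] at this

theorem simple [FaithfulSMul G Ω] (h : RO a t Q) (h2 : R2 G) (gen : Q ⊔ zpowers t = ⊤) : IsSimpleGroup G := by
  haveI : Nontrivial G := ⟨t, 1, h.t_ne⟩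
  refine ⟨fun N hN => ?_⟩
  rcases Nat.even_or_odd o[N] with e | e
  · exact .inr (top_le_iff.1 (gen ▸ h.le_normal h2 e))
  · exact .inl (h.normal_le_H (h.odd_norm_le h2 e (by rw [normalizer_eq_top]; exact le_top)))

theorem perfect [IsSimpleGroup G] (h : RO a t Q) : commutator G = ⊤ := by
  refine (IsSimpleGroup.eq_bot_or_eq_top_of_normal _ inferInstance).resolve_left fun e => ?_
  obtain ⟨s, hs⟩ := h.exists_I
  refine h.t_nmem (h.cent_le (h.I_Q hs) hs.2.1 (mc1.2 ?_))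
  have : ⁅t, s⁆ ∈ commutator G := commutator_mem_commutator (mem_top _) (mem_top _)
  rwa [e, mem_bot, commutatorElement_eq_one_iff_mul_comm] at this

theorem gen_of_simple [IsSimpleGroup G] (h : RO a t Q) : Q ⊔ zpowers t = ⊤ :=
  (IsSimpleGroup.eq_bot_or_eq_top_of_normal _ h.normal_L0).resolve_left fun e =>
    h.t_ne (mem_bot.1 (e ▸ mem_sup_right (mem_zpowers t)))

/-- with `V = 1` no element fixes three points -/
theorem three (h : RO a t Q) (hV : D ⊓ C1[t] = ⊥) (g : G) (x y z : Ω) (h1 : x ≠ y) (h2 : y ≠ z) (h3 : x ≠ z)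
    (e1 : g • x = x) (e2 : g • y = y) (e3 : g • z = z) : g = 1 := by
  obtain ⟨m, m1, m2⟩ := h.two x y a (t • a) h1 h.ta.symm
  have hd : m * g * m⁻¹ ∈ D := mem_inf.2 ⟨by rw [mem_stabilizer_iff, ← m1]; simp [mul_smul, e1],
    by rw [mem_stabilizer_iff, ← m2]; simp [mul_smul, e2]⟩
  obtain ⟨k, -, hk⟩ := h.conj_into_V (X := {m * g * m⁻¹}) (by simpa using hd) (c := m • z)
    (fun e => h3 ((smul_left_cancel_iff m).1 (m1.trans e.symm)))
    (fun e => h2 ((smul_left_cancel_iff m).1 (m2.trans e.symm))) (by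
      rintro _ rfl; simp [mul_smul, e3])
  have := hk _ rfl
  rwa [hV, mem_bot, conj_eq_one_iff, conj_eq_one_iff] at this

theorem zas [FaithfulSMul G Ω] [IsSimpleGroup G] (h : RO a t Q) (h2 : R2 G) (hV : D ⊓ C1[t] = ⊥) :
    IsZassenhausGroup G Ω := by
  obtain ⟨k, hk, k1⟩ := h.exists_K h2
  refine ⟨inferInstance, MulAction.is_two_pretransitive_iff.2 fun h1 h2 => h.two _ _ _ _ h1 h2, h.three hV,
    ⟨k, k1, a, t • a, h.ta.symm, hk.1.1, hk.1.2⟩, fun N hN hT => ⟨a, ?_⟩⟩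
  rcases IsSimpleGroup.eq_bot_or_eq_top_of_normal N hN with rfl | rfl
  · obtain ⟨g, hg⟩ := hT.exists_smul_eq a (t • a)
    rw [show g = 1 from Subsingleton.elim _ _, one_smul] at hg
    exact absurd hg.symm h.ta
  · exact ne_bot_iff'.2 ⟨⟨k, mem_top _⟩, hk.1.1, fun e => k1 (congrArg Subtype.val e)⟩

theorem reg (h : RO a t Q) (c d : Ω) (hc : c ≠ a) (hd : d ≠ a) : ∃! u : Q, (u : G) • c = d := by
  obtain ⟨x, hx, e⟩ := h.ex_q' hc hd
  exact ⟨⟨x, hx⟩, e, fun y hy => Subtype.ext (h.q_inj y.2 hx hc (hy.trans e.symm))⟩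

end RO

end CfsgRO
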