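import Cfsg.Agent.L0.ZJ2
import Cfsg.Agent.L0.Cnt
import Cfsg.Agent.L0.Count
import Cfsg.Agent.H2.PG3
import Cfsg.Agent.H2.Trans
import Cfsg.Agent.H2.NPC

/-! Groups with a self-centralizing element of prime order. -/

set_option autoImplicit false

namespace CfsgSc
open Subgroup Function Cfsg CfsgH2
open scoped commutatorElement

variable {G : Type*} [Group G]

/-- `x` has order `p` and is self-centralizing. -/
structure SC (p : ℕ) (x : G) : Prop where
  ord : orderOf x = p
  cent : C1[x] = zpowers x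

/-- the number of subgroups of order `p` -/
noncomputable abbrev np (p : ℕ) (G : Type*) [Group G] : ℕ := Nat.card {H : Subgroup G // Nat.card H = p}

/-- the number of classes of elements of order `p` -/
noncomputable abbrev tc (p : ℕ) (G : Type*) [Group G] : ℕ :=
  Nat.card {C : ConjClasses G // ∃ g ∈ C.carrier, orderOf g = p}

namespace SC
variable [Finite G] {p : ℕ} [hp : Fact p.Prime] {x : G} (h : SC p x) {S : Subgroup G}
include h

omit [Finite G] hp in
theorem card : Nat.card (zpowers x) = p := (Nat.card_zpowers x).trans h.ord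

omit [Finite G] in
theorem prime : (Nat.card (zpowers x)).Prime := h.card.symm ▸ hp.1

omit [Finite G] hp in
theorem pg : IsPGroup p (zpowers x) := isPGroup_of_card' h.card

omit [Finite G] hp in
theorem cent' : C[zpowers x] = zpowers x := (cent_zpowers x).trans h.cent

omit [Finite G] in
theorem cent_eq {v : G} (hv : v ∈ zpowers x) (h1 : v ≠ 1) : C1[v] = zpowers x := by
  rw [← cent_zpowers, zpowers_eq_of_prime h.prime hv h1, h.cent']

omit [Finite G] in
theorem ne_one : x ≠ 1 := fun e => hp.1.one_lt.ne (by rw [← h.ord, e, orderOf_one])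

theorem syl : Syl p (zpowers x) ⊤ := by
  refine Syl.of_max le_top h.pg fun Q hQ hl _ => le_antisymm (fun y hy => ?_) hl
  have : Nontrivial Q := (nontrivial_iff_ne_bot _).2 fun e =>
    ne_bot_of_card_prime h.prime (le_bot_iff.1 (e ▸ hl))
  have := hQ.center_nontrivial
  obtain ⟨c, hc⟩ := exists_ne (1 : center Q)
  have a : c.1.1 ∈ zpowers x := h.cent ▸ mem_centralizer_singleton_iff.2
    (congrArg Subtype.val (mem_center_iff.1 c.2 ⟨x, hl (mem_zpowers x)⟩)).symm
  rw [← h.cent_eq a (by simpa using hc)]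
  exact mem_centralizer_singleton_iff.2 (congrArg Subtype.val (mem_center_iff.1 c.2 ⟨y, hy⟩))

theorem not_dvd_index : ¬ p ∣ (zpowers x).index := by simpa using h.syl.nd

theorem card_cent {g : G} (hg : orderOf g = p) : Nat.card C1[g] = p := by
  obtain ⟨c, -, hc⟩ := h.syl.exists_conj_le (Q := zpowers g)
    (isPGroup_of_card' ((Nat.card_zpowers g).trans hg)) le_top
  have := h.cent_eq (hc (conj_mem_map_cj (mem_zpowers g))) (fun e => hp.1.one_lt.ne (by
    rw [← hg, ← orderOf_conj' c, e, orderOf_one]))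
  rw [← card_map_cj c, ← centralizer_conj, this, h.card]

theorem sc_of {g : G} (hg : orderOf g = p) : SC p g :=
  ⟨hg, (eq_of_le_of_card_le (zpowers_le_of_mem (self_mem_cent1 g))
    (by rw [h.card_cent hg, Nat.card_zpowers, hg])).symm⟩

theorem card_sylow : Nat.card (Sylow p G) = np p G := by
  refine Nat.card_congr (Equiv.ofBijective (fun P => ⟨(P : Subgroup G),
    ((syl_top P).card_eq_card h.syl).trans h.card⟩) ⟨fun P Q e => Sylow.ext (congrArg Subtype.val e), fun H => ?_⟩)
  obtain ⟨Q, hQ⟩ := (h.syl.of_card_ge (isPGroup_of_card' H.2) le_top (h.card.trans H.2.symm).le).exists_top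
  exact ⟨Q, Subtype.ext hQ⟩

theorem np_eq : np p G = N[zpowers x].index := by
  obtain ⟨Q, hQ⟩ := h.syl.exists_top
  rw [← h.card_sylow, Q.card_eq_index_normalizer, ← hQ]
  rfl

theorem count : tc p G * (zpowers x).index = np p G * (p - 1) := by
  rw [← CfsgL0.card_sub_prime hp.1]
  refine (CfsgL0.card_eq_mul_of_fiber (ι := {g : G // orderOf g = p})
    (κ := {C : ConjClasses G // ∃ g ∈ C.carrier, orderOf g = p})
    (fun g => ⟨ConjClasses.mk g.1, g.1, ConjClasses.mem_carrier_mk, g.2⟩) fun ⟨C, g, hg, ho⟩ => ?_).symm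
  obtain rfl := ConjClasses.mem_carrier_iff_mk_eq.1 hg
  have e := CfsgL0.card_isConj_mul g
  rw [h.card_cent ho, ← (zpowers x).index_mul_card, h.card] at e
  rw [← Nat.eq_of_mul_eq_mul_right hp.1.pos e]
  refine Nat.card_congr ⟨fun y => ⟨y.1.1, (ConjClasses.mk_eq_mk_iff_isConj.1 (congrArg Subtype.val y.2)).symm⟩,
    fun y => ⟨⟨y.1, ?_⟩, Subtype.ext (ConjClasses.mk_eq_mk_iff_isConj.2 y.2.symm)⟩, fun _ => rfl, fun _ => rfl⟩
  obtain ⟨c, hc⟩ := isConj_iff.1 y.2
  rw [← hc, orderOf_conj', ho]

theorem index_eq : (zpowers x).index = (zpowers x).relIndex N[zpowers x] * np p G := by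
  rw [h.np_eq, relIndex_mul_index le_normalizer]

theorem tc_mul : tc p G * (zpowers x).relIndex N[zpowers x] = p - 1 := by
  have := h.count
  rw [h.index_eq, ← mul_assoc, mul_comm (np p G)] at this
  exact Nat.eq_of_mul_eq_mul_right (h.np_eq ▸ index_pos _) this

theorem tc_le : tc p G ≤ p - 1 := Nat.le_of_dvd (Nat.sub_pos_of_lt hp.1.one_lt) ⟨_, h.tc_mul.symm⟩

theorem tc_iff : tc p G = p - 1 ↔ N[zpowers x] ≤ zpowers x := by
  rw [← relIndex_eq_one]
  have := h.tc_mul
  have h2 := Nat.sub_pos_of_lt hp.1.one_lt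
  refine ⟨fun e => Nat.eq_of_mul_eq_mul_left h2 (by rw [mul_one, ← e, this, e]), fun e => ?_⟩
  rwa [e, mul_one] at this

omit [Finite G] in
theorem comm_norm : ⁅N[zpowers x], N[zpowers x]⁆ ≤ zpowers x :=
  (commutator_norm_le_cent_of_cyclic (isCyclic_of_card_prime hp.1 h.card)).trans h.cent'.le

omit [Finite G] in
theorem comm_le_sup [S.Normal] (hS : N[zpowers x] ⊔ S = ⊤) : commutator G ≤ zpowers x ⊔ S := by
  rw [← map_mk_le_map_mk, commutator_def, map_commutator, (map_mk_eq_map_mk S (K := N[zpowers x])).2 (by simp [hS]),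
    ← map_commutator]
  exact map_mono h.comm_norm

theorem le_of_dvd {M : Subgroup G} (hS : S ≤ M) (hn : zpowers x ≤ N[S]) (hx : x ∈ M) (hd : p ∣ Nat.card S) :
    zpowers x ≤ S :=
  le_of_inf_ne_bot h.prime (((h.syl.mono (zpowers_le_of_mem hx) le_top).inf_norm hS hn).ne_bot hd)

theorem norm_sup [S.Normal] (hl : zpowers x ≤ S) : N[zpowers x] ⊔ S = ⊤ := by
  simpa [sup_comm] using (h.syl.mono hl le_top).frattini_sup le_top (top_le_norm_iff.2 ‹_›)

theorem comm_le [S.Normal] (hd : p ∣ Nat.card S) : commutator G ≤ S := by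
  have hl := h.le_of_dvd le_top le_normalizer_of_normal (mem_top x) hd
  exact (h.comm_le_sup (h.norm_sup hl)).trans (sup_le hl le_rfl)

omit [Finite G] in
theorem inf_bot (hd : ¬ p ∣ Nat.card S) : zpowers x ⊓ S = ⊥ :=
  inf_eq_bot_of_not_le h.prime fun hl => hd (h.card ▸ card_dvd_of_le hl)

omit [Finite G] in
theorem norm_inf [S.Normal] (hd : ¬ p ∣ Nat.card S) : N[zpowers x] ⊓ S = ⊥ := by
  refine eq_bot_iff.2 ((le_inf ?_ inf_le_right).trans (h.inf_bot hd).le)
  refine le_trans ?_ h.cent'.le
  rw [le_centralizer_iff, ← commutator_eq_bot_iff_le_centralizer, eq_bot_iff, ← h.inf_bot hd]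
  exact le_inf (comm_le_left inf_le_left) ((commutator_mono le_rfl inf_le_right).trans (commutator_le_right _ _))

theorem card_mul [S.Normal] (hd : ¬ p ∣ Nat.card S) :
    Nat.card S * (N[zpowers x] ⊔ S).index = np p G := by
  have a := card_sup_of_disj (.inl le_normalizer_of_normal) (h.norm_inf hd)
  have b := (N[zpowers x] ⊔ S).card_mul_index
  rw [a, ← N[zpowers x].card_mul_index, mul_assoc, ← h.np_eq] at b
  exact Nat.eq_of_mul_eq_mul_left (card_pos' _) b

theorem modEq (hn : zpowers x ≤ N[S]) (hd : ¬ p ∣ Nat.card S) : Nat.card S ≡ 1 [MOD p] := by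
  have := card_modEq_inf_cent h.pg hn
  rwa [h.cent', inf_comm, h.inf_bot hd, card_bot] at this

theorem quot [S.Normal] (hd : ¬ p ∣ Nat.card S) : SC p (QuotientGroup.mk x : G ⧸ S) := by
  constructor
  · refine (Nat.dvd_prime hp.1).1 (h.ord ▸ orderOf_map_dvd (QuotientGroup.mk' S) x) |>.resolve_left fun e => ?_
    exact h.ne_one (mem_bot.1 ((h.inf_bot hd).le ⟨mem_zpowers x, (QuotientGroup.eq_one_iff x).1 (orderOf_eq_one_iff.1 e)⟩))
  · have := CfsgL0.map_cent_of_coprime (QuotientGroup.mk'_surjective S) (by rwa [QuotientGroup.ker_mk']) h.pg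
    rw [h.cent', MonoidHom.map_zpowers, cent_zpowers] at this
    exact this.symm

theorem le_comm (hn : zpowers x ≤ N[S]) (hd : ¬ p ∣ Nat.card S) : S ≤ commutator G := by
  have := coprime_comm_sup_cent hn (coprime_of_pgroup h.pg hd) (.inl (isSolvable_of_pgroup h.pg))
  rw [h.cent', inf_comm, h.inf_bot hd, sup_bot_eq] at this
  exact this.ge.trans (commutator_mono le_top le_top)

theorem of_eq (ht : tc p G = p - 1) : commutator G = pPrimeCore p G ∧ (commutator G).index = p ∧
    Nat.card (commutator G) = np p G := by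
  have hN := h.tc_iff.1 ht
  have a := (h.syl.npc_of_norm_le_cent (inf_le_right.trans (hN.trans h.cent'.ge))).sup_eq h.syl
  rw [← pPrimeCore_eq'] at a
  have hd : ¬ p ∣ Nat.card (pPrimeCore p G) := not_dvd_pPrimeCore
  have e : commutator G = pPrimeCore p G := le_antisymm (by
    rw [← map_mk_eq_bot, commutator_def, map_commutator, (map_mk_eq_map_mk _ (K := zpowers x)).2 (by
      rw [sup_comm (zpowers x), a, top_sup_eq]), ← map_commutator,
      commutator_eq_bot_iff_le_centralizer.2 h.cent'.ge, Subgroup.map_bot])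
    (h.le_comm le_normalizer_of_normal hd)
  have b := h.card_mul hd
  rw [le_antisymm hN le_normalizer, sup_comm, a, index_top, mul_one] at b
  have c := card_sup_of_disj (.inl le_normalizer_of_normal) (h.inf_bot hd)
  rw [sup_comm, a, card_top, ← (pPrimeCore p G).index_mul_card, h.card] at c
  exact ⟨e, e ▸ Nat.eq_of_mul_eq_mul_right (card_pos' _) c, e ▸ b⟩

theorem le_of_ne (ht : tc p G ≠ p - 1) : zpowers x ≤ commutator G := by
  refine le_of_inf_ne_bot h.prime fun e => ht (h.tc_iff.2 ?_)
  nth_rw 2 [← h.cent']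
  rw [← commutator_eq_bot_iff_le_centralizer, eq_bot_iff, ← e]
  exact le_inf (comm_le_right le_rfl) (commutator_mono le_top le_top)

theorem index_dvd (ht : tc p G ≠ p - 1) : (commutator G).index ∣ (zpowers x).relIndex N[zpowers x] := by
  rw [← relIndex_top_right, ← h.norm_sup (h.le_of_ne ht), relIndex_sup_right]
  exact relIndex_dvd_of_le_left _ (h.le_of_ne ht)

theorem of_ne (ht : tc p G ≠ p - 1) (hd : ⁅commutator G, commutator G⁆ ≠ commutator G) :
    Nat.card (⁅commutator G, commutator G⁆ : Subgroup G) = np p G ∧ Nat.card (commutator G) = p * np p G := by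
  have hl := h.le_of_ne ht
  have a : ¬ p ∣ Nat.card (⁅commutator G, commutator G⁆ : Subgroup G) := fun e =>
    hd (le_antisymm (commutator_le_left _ _) (h.comm_le e))
  have b : commutator G = zpowers x ⊔ ⁅commutator G, commutator G⁆ := by
    refine le_antisymm ?_ (sup_le hl (commutator_le_left _ _))
    rw [← map_mk_le_map_mk, MonoidHom.map_zpowers, QuotientGroup.mk'_apply, ← (h.quot a).cent', ← QuotientGroup.mk'_apply,
      ← MonoidHom.map_zpowers, map_le_cent_map_iff_comm, QuotientGroup.ker_mk']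
    exact commutator_mono le_rfl hl
  have c := h.card_mul a
  have d : N[zpowers x] ⊔ ⁅commutator G, commutator G⁆ = ⊤ := by
    rw [← h.norm_sup hl]
    nth_rw 3 [b]
    rw [← sup_assoc, sup_eq_left.2 (le_normalizer (H := zpowers x))]
  rw [d, index_top, mul_one] at c
  refine ⟨c, ?_⟩
  rw [← c, ← h.card, ← card_sup_of_disj (.inl le_normalizer_of_normal) (h.inf_bot a), ← b]

theorem ne_of_card [S.Normal] (hS : Nat.card S = np p G) (ht : tc p G ≠ p - 1) :
    ⁅commutator G, commutator G⁆ ≠ commutator G := by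
  have a : ¬ p ∣ Nat.card S := by
    rw [hS, h.np_eq]
    exact fun e => h.not_dvd_index (e.trans (index_dvd_of_le le_normalizer))
  have b := h.card_mul a
  rw [← hS] at b
  have c := h.comm_le_sup (index_eq_one.1 (Nat.eq_of_mul_eq_mul_left (card_pos' _) (b.trans (mul_one _).symm)))
  intro e
  refine a (h.card ▸ card_dvd_of_le ((h.le_of_ne ht).trans (e.ge.trans ?_)))
  rw [← map_mk_le_map_mk] at c
  rw [← map_mk_eq_bot, map_commutator, eq_bot_iff]
  refine (commutator_mono c c).trans ?_
  rw [← map_commutator, commutator_eq_bot_iff_le_centralizer.2 h.cent'.ge, Subgroup.map_bot]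

theorem eq_or_le {H : Subgroup G} (hl : H ≤ commutator G) (hn : commutator G ≤ N[H]) (ht : tc p G ≠ p - 1) :
    H = commutator G ∨ H ≤ pPrimeCore p G := by
  by_cases hd : p ∣ Nat.card H
  · have hx := h.le_of_ne ht
    have a := h.le_of_dvd hl (hx.trans hn) (hx (mem_zpowers x)) hd
    refine .inl (le_antisymm hl ((h.comm_le (S := normalClosure (zpowers x : Set G))
      (h.card ▸ card_dvd_of_le le_normalClosure)).trans ?_))
    refine (closure_le _).2 fun y hy => ?_
    obtain ⟨z, hz, hc⟩ := Group.mem_conjugatesOfSet_iff.1 hy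
    obtain ⟨c, rfl⟩ := isConj_iff.1 hc
    have s := h.syl.mono hx le_top
    obtain ⟨g, hg, e⟩ := s.conj (s.map_cj_norm (g := c) (top_le_norm_iff.2 inferInstance (mem_top c)))
    exact map_cj_le_of_norm a (hn hg) (e.ge (conj_mem_map_cj hz))
  · exact .inr ((le_pPrimeCoreOf hl hn hd).trans (pPrimeCore_eq' (p := p) (G := G) ▸
      piCoreOf_le_of_norm le_top (top_le_norm_iff.2 inferInstance)))

end SC
end CfsgSc
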